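import Mathlib

/-! Theta series of even self-dual lattices given by an orthogonal frame; weight 12. -/

set_option autoImplicit false
set_option linter.unusedSectionVars false

namespace Cfsg.Agent.Spor.Theta

open Complex Finset
open scoped Real

theorem tsum_pi_fin {n : ℕ} (f : Fin n → ℤ → ℂ) (hf : ∀ i, Summable fun k => ‖f i k‖) :
    (Summable fun x : Fin n → ℤ => ‖∏ i, f i (x i)‖) ∧
      ∑' x : Fin n → ℤ, ∏ i, f i (x i) = ∏ i, ∑' k, f i k := by
  induction n with
  | zero => exact ⟨.of_finite, by simp⟩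
  | succ n ih =>
    obtain ⟨h1, h2⟩ := ih (fun i => f i.succ) fun i => hf _
    have e : ∀ p : ℤ × (Fin n → ℤ), ∏ i, f i (Fin.consEquiv (fun _ => ℤ) p i) =
        f 0 p.1 * ∏ i : Fin n, f i.succ (p.2 i) := fun p => by
      rw [Fin.prod_univ_succ]; rfl
    constructor
    · rw [← (Fin.consEquiv fun _ => ℤ).summable_iff]
      simpa only [Function.comp_def, e] using (hf 0).mul_norm h1
    · rw [← (Fin.consEquiv fun _ => ℤ).tsum_eq, Fin.prod_univ_succ, ← h2,
        tsum_mul_tsum_of_summable_norm (hf 0) h1]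
      exact tsum_congr e

variable {ι : Type*} [Fintype ι]

theorem tsum_pi (f : ι → ℤ → ℂ) (hf : ∀ i, Summable fun k => ‖f i k‖) :
    (Summable fun x : ι → ℤ => ‖∏ i, f i (x i)‖) ∧
      ∑' x : ι → ℤ, ∏ i, f i (x i) = ∏ i, ∑' k, f i k := by
  let e := (Fintype.equivFin ι).symm
  obtain ⟨h1, h2⟩ := tsum_pi_fin (fun i => f (e i)) fun i => hf _
  have h : ∀ x : Fin _ → ℤ, ∏ i, f i ((e.arrowCongr (Equiv.refl ℤ)) x i) = ∏ i, f (e i) (x i) :=
    fun x => by rw [← e.prod_comp]; simp
  constructor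
  · rw [← (e.arrowCongr (Equiv.refl ℤ)).summable_iff]
    simpa only [Function.comp_def, h] using h1
  · rw [← (e.arrowCongr (Equiv.refl ℤ)).tsum_eq, ← e.prod_comp, ← h2]
    exact tsum_congr h

/-- The one-dimensional Gaussian. -/
noncomputable def gs (d : ℕ) (a : ℂ) (k : ℤ) : ℂ := cexp (-π * a * k ^ 2 / d)

theorem summable_gs {d : ℕ} (hd : 0 < d) {a : ℂ} (ha : 0 < a.re) : Summable fun k => ‖gs d a k‖ := by
  have := (summable_jacobiTheta₂_term_iff 0 (I * a / d)).2 (by
    rw [div_natCast_im, I_mul_im]; positivity)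
  refine this.norm.congr fun k => ?_
  rw [jacobiTheta₂_term, gs]
  congr 2
  linear_combination (π * a * k ^ 2 / d) * I_sq

theorem re_inv_pos {a : ℂ} (ha : 0 < a.re) : 0 < (a⁻¹).re := by
  rw [inv_re]
  exact div_pos ha (normSq_pos.2 (by rintro rfl; simp at ha))

theorem poisson_one {d : ℕ} [NeZero d] {a : ℂ} (ha : 0 < a.re) (c : ZMod d) :
    ∑' k : ℤ, ZMod.stdAddChar (c * (k : ZMod d)) * gs d a k = cexp (Real.log d / 2) / a ^ (1 / 2 : ℂ) *
      ∑' k : ℤ, if (k : ZMod d) = -c then gs d a⁻¹ k else 0 := by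
  have hd : 0 < d := Nat.pos_of_ne_zero (NeZero.ne d)
  have hd' : (d : ℂ) ≠ 0 := by exact_mod_cast hd.ne'
  have ha0 : a ≠ 0 := by rintro rfl; simp at ha
  obtain ⟨c, rfl⟩ := ZMod.intCast_surjective c
  have h := tsum_exp_neg_quadratic (a := a / d) (by rw [div_natCast_re]; positivity) (I * c / d)
  have e1 : ∀ k : ℤ, ZMod.stdAddChar ((c : ZMod d) * (k : ZMod d)) * gs d a k =
      cexp (-π * (a / d) * k ^ 2 + 2 * π * (I * c / d) * k) := by
    intro k
    rw [← Int.cast_mul, ZMod.stdAddChar_coe, gs, ← exp_add]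
    congr 1; push_cast; ring
  have e2 : (1 : ℂ) / (a / d) ^ (1 / 2 : ℂ) = cexp (Real.log d / 2) / a ^ (1 / 2 : ℂ) := by
    rw [cpow_def_of_ne_zero (div_ne_zero ha0 hd'), cpow_def_of_ne_zero ha0, ← exp_sub, one_div,
      ← exp_neg, show a / d = ((d : ℝ)⁻¹ : ℝ) * a by push_cast; ring,
      log_ofReal_mul (by positivity) ha0, Real.log_inv]
    congr 1; push_cast; ring
  simp only [e1]
  rw [h, e2]
  congr 1
  have hinj : Function.Injective fun m : ℤ => d * m - c := fun x y hxy => by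
    simpa [hd.ne'] using hxy
  rw [← hinj.tsum_eq (f := fun k : ℤ => if (k : ZMod d) = -c then gs d a⁻¹ k else 0)]
  · refine tsum_congr fun m => ?_
    rw [if_pos (by simp), gs]
    rw [← mul_div_assoc, ← mul_assoc, I_mul_I]
    congr 1; push_cast; field_simp; ring
  · intro k hk
    have h1 : (k : ZMod d) = -c := by by_contra h; exact hk (if_neg h)
    have h2 : ((k + c : ℤ) : ZMod d) = 0 := by push_cast; rw [h1]; ring
    obtain ⟨m, hm⟩ := (ZMod.intCast_zmod_eq_zero_iff_dvd _ _).1 h2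
    exact ⟨m, by simp only; omega⟩

/-- An even self-dual lattice, in coordinates dual to an orthogonal frame of norms `d i`. -/
structure Code (ι : Type*) [Fintype ι] where
  /-- the norms of the frame -/
  d : ι → ℕ
  pos : ∀ i, 0 < d i
  /-- the lattice -/
  H : AddSubgroup (ι → ℤ)
  dual : ∀ k, k ∈ H ↔ ∀ h ∈ H, ∃ m : ℤ, ∑ i, (k i * h i : ℚ) / d i = m
  even : ∀ k ∈ H, ∃ m : ℕ, ∑ i, (k i : ℚ) ^ 2 / d i = 2 * m

namespace Code
variable (C : Code ι)

instance (i : ι) : NeZero (C.d i) := ⟨(C.pos i).ne'⟩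

/-- Reduction modulo the frame. -/
def red : (ι → ℤ) →+ ∀ i, ZMod (C.d i) :=
  AddMonoidHom.mk' (fun k i => (k i : ZMod (C.d i))) fun x y => by funext i; simp

theorem red_apply (k : ι → ℤ) (i : ι) : C.red k i = (k i : ZMod (C.d i)) := rfl

theorem mem_of_red {k : ι → ℤ} (h : C.red k = 0) : k ∈ C.H := by
  refine (C.dual k).2 fun x _ => ?_
  choose m hm using fun i => (ZMod.intCast_zmod_eq_zero_iff_dvd _ _).1 (congrFun h i)
  refine ⟨∑ i, m i * x i, ?_⟩
  push_cast
  refine sum_congr rfl fun i _ => ?_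
  have : (C.d i : ℚ) ≠ 0 := by exact_mod_cast (C.pos i).ne'
  rw [hm]; push_cast; field_simp

theorem red_mem_iff {k : ι → ℤ} : C.red k ∈ C.H.map C.red ↔ k ∈ C.H := by
  refine ⟨fun ⟨x, hx, e⟩ => ?_, fun h => ⟨k, h, rfl⟩⟩
  simpa using add_mem hx (C.mem_of_red (k := k - x) (by rw [map_sub, e, sub_self]))

/-- The character attached to an integer vector. -/
noncomputable def chi (k : ι → ℤ) : AddChar (C.H.map C.red) ℂ where
  toFun c := ∏ i, ZMod.stdAddChar (c.1 i * (k i : ZMod (C.d i)))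
  map_zero_eq_one' := by simp
  map_add_eq_mul' a b := by simp [add_mul, AddChar.map_add_eq_mul, prod_mul_distrib]

theorem chi_apply (k : ι → ℤ) (c : C.H.map C.red) :
    C.chi k c = ∏ i, ZMod.stdAddChar (c.1 i * (k i : ZMod (C.d i))) := rfl

theorem chi_eq_zero_iff (k : ι → ℤ) : C.chi k = 0 ↔ k ∈ C.H := by
  have key : ∀ h (hh : h ∈ C.H), C.chi k ⟨C.red h, h, hh, rfl⟩ = 1 ↔
      ∃ m : ℤ, ∑ i, (k i * h i : ℚ) / C.d i = m := by
    intro h hh
    have : C.chi k ⟨C.red h, h, hh, rfl⟩ =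
        cexp (((∑ i, (k i * h i : ℚ) / C.d i : ℚ) : ℂ) * (2 * π * I)) := by
      rw [chi_apply]
      simp only [red_apply, ← Int.cast_mul, ZMod.stdAddChar_coe, ← exp_sum]
      congr 1; push_cast; rw [sum_mul]
      exact sum_congr rfl fun i _ => by ring
    rw [this, exp_eq_one_iff]
    refine exists_congr fun m => ?_
    rw [mul_left_inj' two_pi_I_ne_zero]; norm_cast
  rw [C.dual, AddChar.eq_zero_iff]
  constructor
  · intro h x hx; exact (key x hx).1 (h _)
  · rintro h ⟨_, x, hx, rfl⟩; exact (key x hx).2 (h x hx)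

open Classical in
/-- The theta series, as a function of `a = -iτ`. -/
noncomputable def th (a : ℂ) : ℂ := ∑' k : ι → ℤ, if k ∈ C.H then ∏ i, gs (C.d i) a (k i) else 0

theorem summable_prod {a : ℂ} (ha : 0 < a.re) :
    Summable fun k : ι → ℤ => ‖∏ i, gs (C.d i) a (k i)‖ :=
  (tsum_pi _ fun i => summable_gs (C.pos i) ha).1

theorem summable_ite {α : Type*} {f : α → ℂ} (hf : Summable fun k => ‖f k‖) (p : α → Prop)
    [DecidablePred p] : Summable fun k => ‖if p k then f k else 0‖ :=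
  hf.of_nonneg_of_le (fun _ => norm_nonneg _) fun k => by split_ifs <;> simp

theorem th_eq : ∃ c : ℂ, ∀ a : ℂ, 0 < a.re →
    C.th a = c / (a ^ (1 / 2 : ℂ)) ^ Fintype.card ι * C.th a⁻¹ := by
  classical
  have : Fintype (C.H.map C.red) := Fintype.ofFinite _
  have hc : (Fintype.card (C.H.map C.red) : ℂ) ≠ 0 := by exact_mod_cast Fintype.card_ne_zero
  refine ⟨(∏ i, cexp (Real.log (C.d i) / 2)) / Fintype.card (C.H.map C.red), fun a ha => ?_⟩
  have hs : ∀ (c : C.H.map C.red) i, Summable fun k : ℤ =>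
      ‖ZMod.stdAddChar (c.1 i * (k : ZMod (C.d i))) * gs (C.d i) a k‖ := fun c i => by
    simpa only [ZMod.stdAddChar_apply, norm_mul, Circle.norm_coe, one_mul] using
      summable_gs (C.pos i) ha
  have hs' : ∀ (c : C.H.map C.red) i, Summable fun k : ℤ =>
      ‖if (k : ZMod (C.d i)) = -c.1 i then gs (C.d i) a⁻¹ k else 0‖ := fun c i =>
    summable_ite (summable_gs (C.pos i) (re_inv_pos ha)) _
  have h1 : (Fintype.card (C.H.map C.red) : ℂ) * C.th a = ∑ c : C.H.map C.red,
      ∑' k : ι → ℤ, ∏ i, ZMod.stdAddChar (c.1 i * (k i : ZMod (C.d i))) * gs (C.d i) a (k i) := by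
    rw [← Summable.tsum_finsetSum fun c _ => (tsum_pi _ (hs c)).1.of_norm, th, ← tsum_mul_left]
    refine tsum_congr fun k => ?_
    simp only [prod_mul_distrib, ← sum_mul, ← chi_apply, AddChar.sum_eq_ite, chi_eq_zero_iff]
    split_ifs <;> simp
  have h2 : C.th a⁻¹ = ∑ c : C.H.map C.red, ∑' k : ι → ℤ,
      ∏ i, if (k i : ZMod (C.d i)) = -c.1 i then gs (C.d i) a⁻¹ (k i) else 0 := by
    rw [← Summable.tsum_finsetSum fun c _ => (tsum_pi _ (hs' c)).1.of_norm, th]
    refine tsum_congr fun k => ?_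
    simp only [Fintype.prod_ite_zero]
    split_ifs with hk
    · rw [sum_eq_single ⟨-C.red k, neg_mem (C.red_mem_iff.2 hk)⟩]
      · rw [if_pos fun i => by simp [red_apply]]
      · intro c _ hc
        refine if_neg fun h => hc (Subtype.ext (funext fun i => ?_))
        simp [red_apply, h i]
      · simp
    · refine (sum_eq_zero fun c _ => if_neg fun h => hk (C.red_mem_iff.1 ?_)).symm
      rw [show C.red k = -c.1 from funext h]; exact neg_mem c.2
  apply mul_left_cancel₀ hc
  rw [h1, h2, mul_sum, mul_sum]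
  refine sum_congr rfl fun c _ => ?_
  rw [(tsum_pi _ (hs c)).2, (tsum_pi _ (hs' c)).2]
  simp only [poisson_one ha, prod_mul_distrib, prod_div_distrib, prod_const, card_univ]
  field_simp

theorem th_one_ne : C.th 1 ≠ 0 := by
  classical
  have h1 : ∀ k : ι → ℤ, (if k ∈ C.H then ∏ i, gs (C.d i) 1 (k i) else 0) =
      ((‖if k ∈ C.H then ∏ i, gs (C.d i) 1 (k i) else 0‖ : ℝ) : ℂ) := by
    intro k
    split_ifs
    · have : ∀ i, gs (C.d i) 1 (k i) = (Real.exp (-π * (k i) ^ 2 / C.d i) : ℝ) := fun i => by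
        simp [gs]
      simp only [this, ← ofReal_prod, norm_real]
      rw [Real.norm_of_nonneg (prod_nonneg fun i _ => (Real.exp_pos _).le)]
    · simp
  rw [th, tsum_congr h1, ← ofReal_tsum, ofReal_ne_zero]
  refine ((summable_ite (C.summable_prod (by simp)) _).tsum_pos (fun _ => norm_nonneg _) 0 ?_).ne'
  simp [gs, zero_mem]

theorem th_inv (h24 : Fintype.card ι = 24) {a : ℂ} (ha : 0 < a.re) : C.th a⁻¹ = a ^ 12 * C.th a := by
  obtain ⟨c, hc⟩ := C.th_eq
  have h1 := hc 1 (by simp)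
  rw [one_cpow, one_pow, div_one, inv_one, eq_comm, mul_eq_right₀ C.th_one_ne] at h1
  have ha0 : a ≠ 0 := by rintro rfl; simp at ha
  have h2 : (a ^ (1 / 2 : ℂ)) ^ 24 = a ^ 12 := by
    rw [← cpow_nat_mul, show ((24 : ℕ) : ℂ) * (1 / 2) = (12 : ℕ) by norm_num, cpow_natCast]
  rw [hc a ha, h1, h24, h2]; field_simp

/-- The number of lattice vectors of norm `2 m`. -/
noncomputable def cnt (m : ℕ) : ℕ := {k | k ∈ C.H ∧ ∑ i, (k i : ℚ) ^ 2 / C.d i = 2 * m}.ncard

theorem cnt_zero : C.cnt 0 = 1 := by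
  rw [cnt, Set.ncard_eq_one]
  refine ⟨0, Set.eq_singleton_iff_unique_mem.2 ⟨⟨zero_mem _, by simp⟩, fun k hk => funext fun i => ?_⟩⟩
  have h := hk.2
  rw [Nat.cast_zero, mul_zero, sum_eq_zero_iff_of_nonneg fun i _ => by positivity] at h
  simpa [(C.pos i).ne'] using h i (mem_univ _)

theorem finite_norm (r : ℚ) : {k : ι → ℤ | ∑ i, (k i : ℚ) ^ 2 / C.d i = r}.Finite := by
  classical
  refine (Set.finite_Icc (fun i => -⌈r * C.d i⌉) fun i => ⌈r * C.d i⌉).subset fun k hk => ?_
  have h : ∀ i, k i ^ 2 ≤ ⌈r * C.d i⌉ := fun i => by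
    have h1 := single_le_sum (f := fun i => (k i : ℚ) ^ 2 / C.d i) (fun _ _ => by positivity)
      (mem_univ i)
    rw [show ∑ i, (k i : ℚ) ^ 2 / C.d i = r from hk, div_le_iff₀ (by exact_mod_cast C.pos i)] at h1
    exact_mod_cast h1.trans (Int.le_ceil _)
  constructor <;> intro i <;> have := h i <;> simp only <;> nlinarith

theorem hasSum_th {τ : ℂ} (hτ : 0 < τ.im) :
    HasSum (fun m : ℕ => (C.cnt m : ℂ) • Function.Periodic.qParam 1 τ ^ m) (C.th (-I * τ)) := by
  classical
  have h1 := (summable_ite (C.summable_prod (a := -I * τ) (by simpa using hτ))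
    (· ∈ C.H)).of_norm.hasSum.tsum_fiberwise fun k => ⌊(∑ i, (k i : ℚ) ^ 2 / C.d i) / 2⌋₊
  refine h1.congr_fun fun m => ?_
  rw [_root_.tsum_subtype _ fun k => if k ∈ C.H then ∏ i, gs (C.d i) (-I * τ) (k i) else 0, cnt,
    ← Nat.card_coe_set_eq, Nat.cast_smul_eq_nsmul, ← tsum_const,
    _root_.tsum_subtype _ fun _ => Function.Periodic.qParam 1 τ ^ m]
  refine tsum_congr fun k => ?_
  simp only [Set.indicator, Set.mem_ofPred_eq, Set.mem_preimage, Set.mem_singleton_iff]
  by_cases hk : k ∈ C.H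
  · obtain ⟨n, hn⟩ := C.even k hk
    simp only [hk, true_and, if_true, hn, mul_div_cancel_left₀ (n : ℚ) two_ne_zero, Nat.floor_natCast,
      mul_right_inj' (two_ne_zero (α := ℚ)), Nat.cast_inj]
    split_ifs with h
    · have := congrArg (Rat.cast : ℚ → ℂ) hn
      push_cast at this
      simp only [gs, ← exp_sum, Function.Periodic.qParam, ← exp_nat_mul, ← h]
      congr 1
      simp only [mul_div_assoc, ← mul_sum, this]
      push_cast; ring
    · rfl
  · simp [hk]

open UpperHalfPlane ModularForm SlashInvariantForm MatrixGroups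

/-- The theta series on the upper half plane. -/
noncomputable def thH (τ : ℍ) : ℂ := C.th (-Complex.I * τ)

theorem hasSum_thH (τ : ℍ) :
    HasSum (fun m : ℕ => (C.cnt m : ℂ) • Function.Periodic.qParam 1 τ ^ m) (C.thH τ) :=
  C.hasSum_th τ.2

set_option backward.isDefEq.respectTransparency.types false in
theorem thH_T : (C.thH ∣[(12 : ℤ)] ModularGroup.T) = C.thH := by
  ext z
  rw [SL_slash_apply, denom, modular_T_smul, ModularGroup.T]
  have : Function.Periodic.qParam 1 (((1 : ℝ) +ᵥ z : ℍ) : ℂ) = Function.Periodic.qParam 1 z := by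
    simp only [Function.Periodic.qParam, coe_vadd, ← exp_periodic (2 * π * Complex.I * z / (1 : ℝ))]
    congr 1; push_cast; ring
  have h := C.hasSum_thH ((1 : ℝ) +ᵥ z)
  rw [this] at h
  rw [h.unique (C.hasSum_thH z)]
  simp

set_option backward.isDefEq.respectTransparency.types false in
theorem thH_S (h24 : Fintype.card ι = 24) : (C.thH ∣[(12 : ℤ)] ModularGroup.S) = C.thH := by
  ext z
  suffices C.th (-Complex.I * (-(z : ℂ))⁻¹) * ((z : ℂ) ^ 12)⁻¹ = C.thH z by
    rw [SL_slash_apply, UpperHalfPlane.modular_S_smul]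
    simpa [denom, ModularGroup.S, thH]
  have h0 := z.ne_zero
  rw [show -Complex.I * (-(z : ℂ))⁻¹ = (-Complex.I * z)⁻¹ by field_simp; simp,
    C.th_inv h24 (by simpa using z.2), thH, mul_pow, show (-Complex.I) ^ 12 = 1 by
      rw [Even.neg_pow (by decide), show 12 = 4 * 3 from rfl, pow_mul, I_pow_four, one_pow]]
  field_simp

theorem differentiableOn_th : DifferentiableOn ℂ (fun z => C.th (-Complex.I * z)) {z | 0 < z.im} := by
  classical
  intro z hz
  have hz : 0 < z.im := hz
  have hU : IsOpen {w : ℂ | z.im / 2 < w.im} := isOpen_lt continuous_const continuous_im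
  refine (DifferentiableOn.differentiableAt (s := {w : ℂ | z.im / 2 < w.im}) ?_
    (hU.mem_nhds (by simpa using hz))).differentiableWithinAt
  refine differentiableOn_tsum_of_summable_norm (C.summable_prod (a := (z.im / 2 : ℝ))
    (by simpa using hz)) (fun k => ?_) hU fun k w hw => ?_
  · split_ifs
    · simp only [gs]; fun_prop
    · fun_prop
  · split_ifs
    · simp only [norm_prod]
      refine prod_le_prod (fun _ _ => norm_nonneg _) fun i _ => ?_
      rw [gs, gs, norm_exp, norm_exp, Real.exp_le_exp, div_natCast_re, div_natCast_re]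
      refine div_le_div_of_nonneg_right ?_ (Nat.cast_nonneg _)
      have e : ∀ a : ℂ, (-π * a * (k i) ^ 2).re = -π * (k i) ^ 2 * a.re := fun a => by
        rw [show -π * a * (k i) ^ 2 = ((-π * (k i) ^ 2 : ℝ) : ℂ) * a by push_cast; ring, re_ofReal_mul]
      rw [e, e]
      refine mul_le_mul_of_nonpos_left ?_ (by have := Real.pi_pos; nlinarith [sq_nonneg (k i : ℝ)])
      simpa using hw.le
    · rw [norm_zero]; exact norm_nonneg _

/-- The theta series as a modular form of weight 12. -/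
noncomputable def mf (h24 : Fintype.card ι = 24) : ModularForm 𝒮ℒ 12 where
  toFun := C.thH
  slash_action_eq' A hA := by
    obtain ⟨A, rfl⟩ := hA
    exact slash_action_generators_SL2Z (C.thH_S h24) C.thH_T A
  holo' := by
    rw [UpperHalfPlane.mdifferentiable_iff]
    refine C.differentiableOn_th.congr fun z hz => ?_
    simp [thH, ofComplex_apply_of_im_pos hz]
  bdd_at_cusps' hc := by
    rw [Subgroup.IsArithmetic.isCusp_iff_isCusp_SL2Z] at hc
    rw [OnePoint.isBoundedAt_iff_forall_SL2Z hc]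
    intro γ _
    rw [slash_action_generators_SL2Z (C.thH_S h24) C.thH_T]
    exact isBoundedAtImInfty_of_hasSum_qExpansion one_pos C.hasSum_thH

theorem coeff_mf (h24 : Fintype.card ι = 24) (m : ℕ) :
    (C.cnt m : ℂ) = (qExpansion 1 (C.mf h24)).coeff m :=
  ModularFormClass.qExpansion_coeff_unique one_pos one_mem_strictPeriods_SL (f := C.mf h24)
    C.hasSum_thH m

/-- The theta series of an even self-dual lattice of rank 24 is determined by the number of roots. -/
theorem cnt_eq {κ : Type*} [Fintype κ] (D : Code κ) (h : Fintype.card ι = 24)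
    (h' : Fintype.card κ = 24) (h1 : C.cnt 1 = D.cnt 1) (m : ℕ) : C.cnt m = D.cnt m := by
  have key : C.mf h - D.mf h' = 0 := by
    apply ModularForm.sturm_bound_levelOne
    rw [FunLike.coe_sub, ModularForm.qExpansion_sub one_pos one_mem_strictPeriods_SL]
    refine lt_of_lt_of_le (by decide : ((((12 : ℤ).toNat / 12 : ℕ) : ℕ∞)) < (2 : ℕ))
      (PowerSeries.nat_le_order _ _ fun i hi => ?_)
    rw [map_sub, ← coeff_mf, ← coeff_mf]
    interval_cases i
    · rw [cnt_zero, cnt_zero, sub_self]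
    · rw [h1, sub_self]
  have := C.coeff_mf h m
  rw [sub_eq_zero.1 key, ← coeff_mf] at this
  exact_mod_cast this

end Code

end Cfsg.Agent.Spor.Theta
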