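import Mathlib
import Cfsg.Agent.Spor.Srg100

/-!
Lines (regular 5-cocliques) in a strongly regular graph with parameters (77, 16, 0, 4).
-/

set_option autoImplicit false
set_option linter.unusedSectionVars false

namespace Cfsg.Agent.Spor.Srg77

open Finset Cfsg.Agent.Spor.Srg

variable {V : Type*} [Fintype V] [DecidableEq V] (G : SimpleGraph V) [DecidableRel G.Adj]

/-- Adjacency indicator. -/
def ee (x y : V) : ℤ := if G.Adj x y then 1 else 0

/-- Number of neighbours of `y` in `S`. -/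
def cnt (S : Finset V) (y : V) : ℤ := ∑ s ∈ S, ee G s y

/-- Membership indicator. -/
def ind (S : Finset V) (y : V) : ℤ := if y ∈ S then 1 else 0

/-- The function `2·1_S - cnt S`. -/
def gS (S : Finset V) (y : V) : ℤ := 2 * ind S y - cnt G S y

/-- `φ` satisfies the eigenvalue equation `A φ + 6 φ = c`. -/
def Eig (c : ℤ) (φ : V → ℤ) : Prop := ∀ y, ∑ z, ee G y z * φ z + 6 * φ y = c

/-- Common neighbours. -/
def mu (u v : V) : Finset V := univ.filter fun a => G.Adj u a ∧ G.Adj v a

variable {G}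

theorem sum_eq_card_mul {ι : Type*} {S : Finset ι} {f : ι → ℤ} {c : ℤ} (h : ∀ s ∈ S, f s = c) :
    ∑ s ∈ S, f s = #S * c := by
  rw [sum_congr rfl h, sum_const, nsmul_eq_mul]

theorem ee_comm (x y : V) : ee G x y = ee G y x := by simp [ee, G.adj_comm]

theorem ee_nonneg (x y : V) : 0 ≤ ee G x y := by unfold ee; split_ifs <;> norm_num

theorem ee_adj {x y : V} (h : G.Adj x y) : ee G x y = 1 := if_pos h

theorem ee_not {x y : V} (h : ¬ G.Adj x y) : ee G x y = 0 := if_neg h

theorem cnt_nonneg (S : Finset V) (y : V) : 0 ≤ cnt G S y := sum_nonneg fun _ _ => ee_nonneg _ _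

theorem cnt_eq_card (S : Finset V) (y : V) : cnt G S y = #{s ∈ S | G.Adj s y} := by
  simp [cnt, ee]

theorem cnt_eq_zero {S : Finset V} {y : V} : cnt G S y = 0 ↔ ∀ s ∈ S, ¬ G.Adj s y := by
  rw [cnt_eq_card]
  simp

theorem ind_mem {S : Finset V} {y : V} (h : y ∈ S) : ind S y = 1 := if_pos h

theorem ind_not {S : Finset V} {y : V} (h : y ∉ S) : ind S y = 0 := if_neg h

theorem sum_mul_ind (S : Finset V) (φ : V → ℤ) : ∑ y, φ y * ind S y = ∑ y ∈ S, φ y := by
  simp [ind]

theorem sum_ee (h : G.IsSRGWith 77 16 0 4) (x : V) : ∑ z, ee G x z = 16 := by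
  have := srg_deg h x
  simp only [ee, sum_boole]
  exact_mod_cast this

theorem sum_ee_mul (h : G.IsSRGWith 77 16 0 4) (x y : V) :
    ∑ z, ee G x z * ee G y z = 12 * (if x = y then 1 else 0) - 4 * ee G x y + 4 := by
  have e : ∑ z, ee G x z * ee G y z = #{z | G.Adj x z ∧ G.Adj y z} := by
    simp only [ee, ite_zero_mul_ite_zero, mul_one, sum_boole]
  rw [e]
  by_cases h1 : x = y
  · subst h1
    simp only [and_self, srg_deg h, if_true, ee_not (G.loopless.irrefl x)]
    norm_num
  · by_cases h2 : G.Adj x y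
    · rw [srg_adj h h2, if_neg h1, ee_adj h2]; norm_num
    · rw [srg_not_adj h h1 h2, if_neg h1, ee_not h2]; norm_num

theorem sum_ee_ind (S : Finset V) (y : V) : ∑ z, ee G y z * ind S z = cnt G S y := by
  rw [sum_mul_ind, cnt]
  exact sum_congr rfl fun z _ => ee_comm _ _

theorem sum_ee_cnt (h : G.IsSRGWith 77 16 0 4) (S : Finset V) (y : V) :
    ∑ z, ee G y z * cnt G S z = 12 * ind S y - 4 * cnt G S y + 4 * #S := by
  simp only [cnt, mul_sum]
  rw [sum_comm]
  have : ∀ s ∈ S, ∑ z, ee G y z * ee G s z =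
      12 * (if y = s then 1 else 0) - 4 * ee G s y + 4 := by
    intro s _
    rw [sum_ee_mul h, ee_comm y s]
  rw [sum_congr rfl this, sum_add_distrib, sum_sub_distrib, ← mul_sum, sum_ite_eq]
  simp [ind, mul_comm]

theorem eig_gS (h : G.IsSRGWith 77 16 0 4) (S : Finset V) : Eig G (-4 * #S) (gS G S) := by
  intro y
  simp only [gS, mul_sub, sum_sub_distrib, mul_left_comm _ (2 : ℤ), ← mul_sum, sum_ee_ind,
    sum_ee_cnt h]
  ring

theorem Eig.comb (h : G.IsSRGWith 77 16 0 4) {c d : ℤ} {φ ψ : V → ℤ} (h1 : Eig G c φ)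
    (h2 : Eig G d ψ) (a b k : ℤ) :
    Eig G (22 * k + a * c + b * d) (fun y => k + a * φ y + b * ψ y) := by
  classical
  intro y
  have e1 := h1 y
  have e2 := h2 y
  simp only [mul_add, sum_add_distrib, mul_left_comm _ a, mul_left_comm _ b, ← mul_sum,
    ← sum_mul, sum_ee h]
  rw [← e1, ← e2]
  ring

theorem Eig.sum (h : G.IsSRGWith 77 16 0 4) {c : ℤ} {φ : V → ℤ} (h1 : Eig G c φ) :
    22 * ∑ y, φ y = 77 * c := by
  classical
  have : ∑ y, (∑ z, ee G y z * φ z + 6 * φ y) = ∑ _y : V, c := sum_congr rfl fun y _ => h1 y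
  rw [sum_add_distrib, sum_comm, sum_const, card_univ, h.card] at this
  simp only [← sum_mul] at this
  have e : ∀ z : V, (∑ y, ee G y z) = 16 := fun z => by
    rw [← sum_ee h z]; exact sum_congr rfl fun y _ => ee_comm _ _
  simp only [e, ← mul_sum, nsmul_eq_mul] at this
  push_cast at this
  linarith

theorem Eig.pair {c : ℤ} {φ : V → ℤ} (h1 : Eig G c φ) (S : Finset V) :
    ∑ y, φ y * gS G S y = 8 * ∑ s ∈ S, φ s - c * #S := by
  simp only [gS, mul_sub, sum_sub_distrib, mul_left_comm _ (2 : ℤ), ← mul_sum, sum_mul_ind]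
  simp only [cnt, mul_sum]
  rw [sum_comm]
  have : ∀ s ∈ S, ∑ y, φ y * ee G s y = c - 6 * φ s := by
    intro s _
    rw [← h1 s]
    simp [mul_comm]
  rw [sum_congr rfl this, sum_sub_distrib, ← mul_sum, ← mul_sum, ← mul_sum]
  simp only [sum_const, nsmul_eq_mul]
  ring

theorem sum_cnt (h : G.IsSRGWith 77 16 0 4) (S : Finset V) : ∑ y, cnt G S y = 16 * #S := by
  simp only [cnt]
  rw [sum_comm]
  simp [sum_ee h, mul_comm]

theorem sum_cnt_mul (h : G.IsSRGWith 77 16 0 4) (S T : Finset V) :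
    ∑ y, cnt G T y * cnt G S y =
      ∑ t ∈ T, (12 * ind S t - 4 * cnt G S t + 4 * #S) := by
  simp only [← sum_ee_cnt h]
  rw [sum_comm]
  exact sum_congr rfl fun y _ => by rw [cnt, sum_mul]

theorem mem_mu {u v a : V} : a ∈ mu G u v ↔ G.Adj u a ∧ G.Adj v a := by simp [mu]

theorem card_mu (h : G.IsSRGWith 77 16 0 4) {u v : V} (huv : u ≠ v) (hn : ¬ G.Adj u v) :
    #(mu G u v) = 4 := srg_not_adj h huv hn

/-- There is no `K_{3,3}`. -/
theorem no_k33 (h : G.IsSRGWith 77 16 0 4) {u v x : V} (huv : u ≠ v) (hux : u ≠ x) (hvx : v ≠ x) :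
    cnt G (mu G u v) x ≤ 2 := by
  by_contra hc
  rw [cnt_eq_card] at hc
  obtain ⟨A, hA, hA3⟩ := exists_subset_card_eq (s := {s ∈ mu G u v | G.Adj s x}) (n := 3)
    (by omega)
  set U : Finset V := {u, v, x} with hU
  have hU3 : #U = 3 := by
    rw [hU, card_insert_of_notMem (by simp [huv, hux]), card_pair hvx]
  have hUA : ∀ s ∈ U, ∀ a ∈ A, G.Adj s a := by
    intro s hs a ha
    have := hA ha
    simp only [mem_filter, mem_mu] at this
    simp only [hU, mem_insert, mem_singleton] at hs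
    rcases hs with rfl | rfl | rfl
    · exact this.1.1
    · exact this.1.2
    · exact this.2.symm
  obtain ⟨a0, ha0⟩ : A.Nonempty := card_pos.1 (by omega)
  have cUU : ∀ s ∈ U, cnt G U s = 0 := fun s hs => cnt_eq_zero.2 fun s' hs' =>
    no_triangle h (hUA s' hs' a0 ha0).symm (hUA s hs a0 ha0).symm
  have cAA : ∀ s ∈ A, cnt G A s = 0 := fun s hs => cnt_eq_zero.2 fun s' hs' =>
    no_triangle h (hUA u (by simp [hU]) s' hs') (hUA u (by simp [hU]) s hs)
  have cUA : ∀ a ∈ A, cnt G U a = 3 := fun a ha => by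
    rw [cnt, sum_congr rfl fun s hs => ee_adj (hUA s hs a ha)]; simp [hU3]
  have cAU : ∀ s ∈ U, cnt G A s = 3 := fun s hs => by
    rw [cnt, sum_congr rfl fun a ha => ee_adj (hUA s hs a ha).symm]; simp [hA3]
  have hdis : Disjoint U A := disjoint_left.2 fun s hs ha => G.loopless.irrefl s (hUA s hs s ha)
  have m1 := (sum_cnt_mul h U U).trans (sum_eq_card_mul (c := 24) (fun s hs => by
    rw [ind_mem hs, cUU s hs, hU3]; norm_num))
  have m2 := (sum_cnt_mul h A A).trans (sum_eq_card_mul (c := 24) (fun s hs => by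
    rw [ind_mem hs, cAA s hs, hA3]; norm_num))
  have m3 := (sum_cnt_mul h U A).trans (sum_eq_card_mul (c := 0) (fun s hs => by
    rw [ind_not (disjoint_right.1 hdis hs), cUA s hs, hU3]; norm_num))
  rw [hU3] at m1
  rw [hA3] at m2 m3
  have m4 := sum_cnt h U
  have m5 := sum_cnt h A
  rw [hU3] at m4
  rw [hA3] at m5
  have tot : ∑ y, (cnt G U y + cnt G A y - 1) * (cnt G U y + cnt G A y - 2) = 10 := by
    have : ∀ y, (cnt G U y + cnt G A y - 1) * (cnt G U y + cnt G A y - 2) =
        cnt G U y * cnt G U y + cnt G A y * cnt G A y + 2 * (cnt G A y * cnt G U y)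
          - 3 * cnt G U y - 3 * cnt G A y + 2 := fun y => by ring
    simp only [this, sum_add_distrib, sum_sub_distrib, ← mul_sum, m1, m2, m3, m4, m5, sum_const,
      card_univ, h.card]
    norm_num
  have low : ∑ y ∈ U ∪ A, (cnt G U y + cnt G A y - 1) * (cnt G U y + cnt G A y - 2) = 12 := by
    rw [sum_union hdis, sum_eq_card_mul (S := U) (c := 2) (fun s hs => by
      rw [cUU s hs, cAU s hs]; norm_num), sum_eq_card_mul (S := A) (c := 2) (fun s hs => by
      rw [cUA s hs, cAA s hs]; norm_num)]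
    simp [hU3, hA3]
  have := sum_le_sum_of_subset_of_nonneg (subset_univ (U ∪ A))
    (f := fun y => (cnt G U y + cnt G A y - 1) * (cnt G U y + cnt G A y - 2)) (fun y _ _ => by
      rcases le_or_gt (cnt G U y + cnt G A y) 1 with h' | h'
      · exact mul_nonneg_of_nonpos_of_nonpos (by omega) (by omega)
      · exact mul_nonneg (by omega) (by omega))
  omega

variable (G) in
/-- A line: a 5-coclique such that every vertex has `0` or `2` neighbours on it. -/
def IsLine (L : Finset V) : Prop :=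
  #L = 5 ∧ (∀ y ∈ L, cnt G L y = 0) ∧ ∀ y, cnt G L y = 0 ∨ cnt G L y = 2

variable (G) in
/-- The root function of a line. -/
def tL (L : Finset V) (y : V) : ℤ := if y ∈ L then 2 else if cnt G L y = 0 then 1 else 0

variable (G) in
/-- The root function of a non-adjacent pair. -/
def tP (u v : V) (y : V) : ℤ := 2 + 1 * gS G (mu G u v) y + 2 * gS G {u, v} y

theorem IsLine.two_tL {L : Finset V} (hL : IsLine G L) (y : V) :
    2 * tL G L y = 2 + gS G L y := by
  unfold tL gS
  split_ifs with h1 h2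
  · rw [ind_mem h1, hL.2.1 y h1]; norm_num
  · rw [ind_not h1, h2]; norm_num
  · rw [ind_not h1, (hL.2.2 y).resolve_left h2]; norm_num

theorem IsLine.not_adj {L : Finset V} (hL : IsLine G L) {x y : V} (hx : x ∈ L) (hy : y ∈ L) :
    ¬ G.Adj x y := cnt_eq_zero.1 (hL.2.1 y hy) x hx

theorem cnt_pair {u v : V} (huv : u ≠ v) (y : V) : cnt G {u, v} y = ee G u y + ee G v y := by
  rw [cnt, sum_pair huv]

theorem eig_tP (h : G.IsSRGWith 77 16 0 4) {u v : V} (huv : u ≠ v) (hn : ¬ G.Adj u v) :
    Eig G 12 (tP G u v) := by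
  have := Eig.comb h (eig_gS h (mu G u v)) (eig_gS h {u, v}) 1 2 2
  rw [card_mu h huv hn, card_pair huv] at this
  exact this

theorem tP_far {u v w : V} (hwu : w ≠ u) (hwv : w ≠ v) (huv : u ≠ v) (h1 : ¬ G.Adj u w)
    (h2 : ¬ G.Adj v w) : tP G u v w = 2 - cnt G (mu G u v) w := by
  rw [tP, gS, gS, ind_not (by simp [mem_mu, h1]), ind_not (by simp [hwu, hwv]), cnt_pair huv,
    ee_not h1, ee_not h2]
  ring

theorem tP_left (h : G.IsSRGWith 77 16 0 4) {u v : V} (huv : u ≠ v) (hn : ¬ G.Adj u v) :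
    tP G u v u = 2 := by
  have : cnt G (mu G u v) u = 4 := by
    rw [cnt, sum_congr rfl fun a ha => ee_adj (mem_mu.1 ha).1.symm]
    simp [card_mu h huv hn]
  rw [tP, gS, gS, ind_not (by simp [mem_mu]), ind_mem (by simp), this, cnt_pair huv,
    ee_not (G.loopless.irrefl u), ee_not (fun h' => hn h'.symm)]
  norm_num

theorem tP_right (h : G.IsSRGWith 77 16 0 4) {u v : V} (huv : u ≠ v) (hn : ¬ G.Adj u v) :
    tP G u v v = 2 := by
  have : cnt G (mu G u v) v = 4 := by
    rw [cnt, sum_congr rfl fun a ha => ee_adj (mem_mu.1 ha).2.symm]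
    simp [card_mu h huv hn]
  rw [tP, gS, gS, ind_not (by simp [mem_mu]), ind_mem (by simp), this, cnt_pair huv,
    ee_not (G.loopless.irrefl v), ee_not hn]
  norm_num

theorem tP_adj (h : G.IsSRGWith 77 16 0 4) {u v w : V} (huv : u ≠ v) (hn : ¬ G.Adj u v)
    (hw : G.Adj u w ∨ G.Adj v w) : tP G u v w = 0 := by
  have c0 : cnt G (mu G u v) w = 0 := cnt_eq_zero.2 fun a ha => by
    rcases hw with hw | hw
    · exact no_triangle h (mem_mu.1 ha).1 hw
    · exact no_triangle h (mem_mu.1 ha).2 hw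
  have hw' : w ∉ ({u, v} : Finset V) := by
    simp only [mem_insert, mem_singleton, not_or]
    constructor
    · rintro rfl
      rcases hw with hw | hw
      · exact G.loopless.irrefl _ hw
      · exact hn hw.symm
    · rintro rfl
      rcases hw with hw | hw
      · exact hn hw
      · exact G.loopless.irrefl _ hw
  rw [tP, gS, gS, c0, ind_not hw', cnt_pair huv]
  by_cases h1 : G.Adj u w <;> by_cases h2 : G.Adj v w
  · rw [ind_mem (mem_mu.2 ⟨h1, h2⟩), ee_adj h1, ee_adj h2]; norm_num
  · rw [ind_not (by simp [mem_mu, h2]), ee_adj h1, ee_not h2]; norm_num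
  · rw [ind_not (by simp [mem_mu, h1]), ee_not h1, ee_adj h2]; norm_num
  · tauto

theorem tP_range (h : G.IsSRGWith 77 16 0 4) {u v : V} (huv : u ≠ v) (hn : ¬ G.Adj u v) (w : V) :
    0 ≤ tP G u v w ∧ tP G u v w ≤ 2 := by
  by_cases h1 : w = u
  · rw [h1, tP_left h huv hn]; norm_num
  by_cases h2 : w = v
  · rw [h2, tP_right h huv hn]; norm_num
  by_cases h3 : G.Adj u w ∨ G.Adj v w
  · rw [tP_adj h huv hn h3]; norm_num
  · rw [not_or] at h3
    rw [tP_far h1 h2 huv h3.1 h3.2]
    have := no_k33 h huv (Ne.symm h1) (Ne.symm h2)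
    have := cnt_nonneg (G := G) (mu G u v) w
    omega

/-- Every non-adjacent pair lies on a line. -/
theorem exists_line (h : G.IsSRGWith 77 16 0 4) {u v : V} (huv : u ≠ v) (hn : ¬ G.Adj u v) :
    ∃ L, IsLine G L ∧ ∀ y, tL G L y = tP G u v y := by
  have hE := eig_tP h huv hn
  have hr := tP_range h huv hn
  set t := tP G u v with ht
  have s1 : ∑ y, t y = 42 := by have := hE.sum h; omega
  have s2 : ∑ y, t y * t y = 52 := by
    have e : ∀ y, t y * t y = 2 * t y + t y * gS G (mu G u v) y + 2 * (t y * gS G {u, v} y) := by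
      intro y
      have : t y = 2 + 1 * gS G (mu G u v) y + 2 * gS G {u, v} y := rfl
      linear_combination (t y) * this
    simp only [e, sum_add_distrib, ← mul_sum, hE.pair, s1, card_mu h huv hn, card_pair huv]
    rw [sum_pair huv, ht, tP_left h huv hn, tP_right h huv hn,
      sum_congr rfl (g := fun _ => 0) fun a ha => tP_adj h huv hn (Or.inl (mem_mu.1 ha).1)]
    norm_num
  set L : Finset V := univ.filter fun y => t y = 2 with hL
  set Z : Finset V := univ.filter fun y => t y = 0 with hZ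
  have hLc : #L = 5 := by
    have e : ∀ y, t y * t y - t y = 2 * ind L y := by
      intro y
      have := hr y
      unfold ind
      simp only [hL, mem_filter, mem_univ, true_and]
      split_ifs with h'
      · rw [h']; norm_num
      · have : t y = 0 ∨ t y = 1 := by omega
        rcases this with h'' | h'' <;> rw [h''] <;> norm_num
    have : ∑ y, (t y * t y - t y) = ∑ y, 2 * ind L y := sum_congr rfl fun y _ => e y
    rw [sum_sub_distrib, s1, s2, ← mul_sum] at this
    simp only [ind, sum_boole, filter_mem_eq_inter, univ_inter] at this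
    omega
  have hZc : #Z = 40 := by
    have e : ∀ y, t y * t y - 3 * t y + 2 = 2 * ind Z y := by
      intro y
      have := hr y
      unfold ind
      simp only [hZ, mem_filter, mem_univ, true_and]
      split_ifs with h'
      · rw [h']; norm_num
      · have : t y = 2 ∨ t y = 1 := by omega
        rcases this with h'' | h'' <;> rw [h''] <;> norm_num
    have : ∑ y, (t y * t y - 3 * t y + 2) = ∑ y, 2 * ind Z y := sum_congr rfl fun y _ => e y
    rw [sum_add_distrib, sum_sub_distrib, ← mul_sum, s1, s2, ← mul_sum, sum_const, card_univ,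
      h.card] at this
    simp only [ind, sum_boole, filter_mem_eq_inter, univ_inter, nsmul_eq_mul] at this
    push_cast at this
    omega
  have hnb : ∀ z, t z ≠ 0 → cnt G L z = 0 := by
    intro z hz
    refine cnt_eq_zero.2 fun y hy hyz => hz ?_
    have hy2 : t y = 2 := by simpa [hL] using hy
    have e := hE y
    rw [hy2] at e
    have e0 : ∑ z, ee G y z * t z = 0 := by omega
    have := (sum_eq_zero_iff_of_nonneg fun z _ => mul_nonneg (ee_nonneg y z) (hr z).1).1 e0 z
      (mem_univ z)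
    rwa [ee_adj hyz, one_mul] at this
  have hLL : ∀ y ∈ L, cnt G L y = 0 := fun y hy => hnb y (by
    have hy2 : t y = 2 := by simpa [hL] using hy
    omega)
  have hZ2 : ∀ z ∈ Z, cnt G L z = 2 := by
    have r : ∀ (f : ℤ → ℤ), f 0 = 0 → ∑ z ∈ Z, f (cnt G L z) = ∑ z, f (cnt G L z) := by
      intro f hf
      refine sum_subset (subset_univ _) fun z _ hz => ?_
      rw [hnb z (by simpa [hZ] using hz), hf]
    have m1 := sum_cnt h L
    have m2 := (sum_cnt_mul h L L).trans (sum_eq_card_mul (c := 32) (fun s hs => by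
      rw [ind_mem hs, hLL s hs, hLc]; norm_num))
    rw [hLc] at m1 m2
    have tot : ∑ z ∈ Z, (cnt G L z - 2) ^ 2 = 0 := by
      have e : ∀ z ∈ Z, (cnt G L z - 2) ^ 2 = (cnt G L z * cnt G L z - 4 * cnt G L z) + 4 :=
        fun z _ => by ring
      rw [sum_congr rfl e, sum_add_distrib, r (fun c => c * c - 4 * c) (by norm_num),
        sum_sub_distrib, ← mul_sum, m1, m2, sum_const, hZc]
      norm_num
    intro z hz
    have := (sum_eq_zero_iff_of_nonneg fun z _ => sq_nonneg _).1 tot z hz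
    nlinarith
  refine ⟨L, ⟨hLc, hLL, fun y => ?_⟩, fun y => ?_⟩
  · by_cases hy : t y = 0
    · exact Or.inr (hZ2 y (by simp [hZ, hy]))
    · exact Or.inl (hnb y hy)
  · unfold tL
    have := hr y
    split_ifs with h1 h2
    · exact (by simpa [hL] using h1 : t y = 2).symm
    · have a1 : t y ≠ 2 := by simpa [hL] using h1
      have a2 : t y ≠ 0 := fun h' => by
        have := hZ2 y (by simp [hZ, h'])
        omega
      omega
    · by_contra h3
      exact h2 (hnb y (Ne.symm h3))

theorem tL_eq_two {L : Finset V} {y : V} : tL G L y = 2 ↔ y ∈ L := by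
  unfold tL
  split_ifs with h1 h2 <;> simp [h1]

theorem tL_nonneg (L : Finset V) (y : V) : 0 ≤ tL G L y := by
  unfold tL
  split_ifs <;> norm_num

/-- The root function of a line is that of any two of its points. -/
theorem IsLine.tL_eq (h : G.IsSRGWith 77 16 0 4) {L : Finset V} (hL : IsLine G L) {u v : V}
    (hu : u ∈ L) (hv : v ∈ L) (huv : u ≠ v) (y : V) : tL G L y = tP G u v y := by
  have hn := hL.not_adj hu hv
  obtain ⟨M, hM, hMt⟩ := exists_line h huv hn
  have : L = M := by
    refine eq_of_subset_of_card_le (fun w hw => ?_) (by rw [hL.1, hM.1])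
    rw [← tL_eq_two (G := G), hMt]
    by_cases h1 : w = u
    · rw [h1, tP_left h huv hn]
    by_cases h2 : w = v
    · rw [h2, tP_right h huv hn]
    rw [tP_far h1 h2 huv (hL.not_adj hu hw) (hL.not_adj hv hw), cnt_eq_zero.2]
    · norm_num
    intro a ha haw
    have h3 : ({u, v, w} : Finset V) ⊆ {s ∈ L | G.Adj s a} := by
      intro s hs
      simp only [mem_insert, mem_singleton] at hs
      rcases hs with rfl | rfl | rfl
      · exact mem_filter.2 ⟨hu, (mem_mu.1 ha).1⟩
      · exact mem_filter.2 ⟨hv, (mem_mu.1 ha).2⟩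
      · exact mem_filter.2 ⟨hw, haw.symm⟩
    have h4 := card_le_card h3
    rw [card_insert_of_notMem (by simp [huv, Ne.symm h1]), card_pair (Ne.symm h2)] at h4
    have := hL.2.2 a
    rw [cnt_eq_card] at this
    omega
  rw [this, hMt]

theorem exists_line_mem (h : G.IsSRGWith 77 16 0 4) {u v : V} (huv : u ≠ v) (hn : ¬ G.Adj u v) :
    ∃ L, IsLine G L ∧ u ∈ L ∧ v ∈ L := by
  obtain ⟨L, hL, ht⟩ := exists_line h huv hn
  exact ⟨L, hL, tL_eq_two.1 ((ht u).trans (tP_left h huv hn)),
    tL_eq_two.1 ((ht v).trans (tP_right h huv hn))⟩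

theorem IsLine.unique (h : G.IsSRGWith 77 16 0 4) {L M : Finset V} (hL : IsLine G L)
    (hM : IsLine G M) {u v : V} (hu : u ∈ L) (hv : v ∈ L) (hu' : u ∈ M) (hv' : v ∈ M)
    (huv : u ≠ v) : L = M := by
  ext y
  rw [← tL_eq_two (G := G), ← tL_eq_two (G := G), hL.tL_eq h hu hv huv, hM.tL_eq h hu' hv' huv]

theorem IsLine.eig (h : G.IsSRGWith 77 16 0 4) {L : Finset V} (hL : IsLine G L) :
    Eig G 12 (tL G L) := by
  obtain ⟨u, hu, v, hv, huv⟩ := one_lt_card.1 (show 1 < #L by rw [hL.1]; norm_num)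
  have : tL G L = tP G u v := funext (hL.tL_eq h hu hv huv)
  rw [this]
  exact eig_tP h huv (hL.not_adj hu hv)

/-- Pairing an eigenfunction with a line in two ways. -/
theorem IsLine.pair (h : G.IsSRGWith 77 16 0 4) {L : Finset V} (hL : IsLine G L) {u v : V}
    (hu : u ∈ L) (hv : v ∈ L) (huv : u ≠ v) {c : ℤ} {φ : V → ℤ} (hφ : Eig G c φ) :
    2 * ∑ s ∈ L, φ s + c = 4 * ∑ a ∈ mu G u v, φ a + 8 * (φ u + φ v) := by
  have e : ∀ y, φ y * gS G L y =
      2 * φ y + 2 * (φ y * gS G (mu G u v) y) + 4 * (φ y * gS G {u, v} y) := by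
    intro y
    have h1 := hL.two_tL y
    rw [hL.tL_eq h hu hv huv, tP] at h1
    have : gS G L y = 2 + 2 * gS G (mu G u v) y + 4 * gS G {u, v} y := by omega
    rw [this]; ring
  have h1 := hφ.pair L
  simp only [e, sum_add_distrib, ← mul_sum, hφ.pair, card_mu h huv (hL.not_adj hu hv),
    card_pair huv, hL.1, sum_pair huv] at h1
  have h2 := hφ.sum h
  push_cast at h1
  omega

end Cfsg.Agent.Spor.Srg77
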