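import Mathlib
import Cfsg.Agent.Spor.Srg77

/-!
Points (21-cocliques) in a strongly regular graph with parameters (77, 16, 0, 4): the graph is
the block graph of a Steiner system S(3,6,22).
-/

set_option autoImplicit false
set_option linter.unusedSectionVars false

namespace Cfsg.Agent.Spor.Srg77

open Finset Cfsg.Agent.Spor.Srg

variable {V : Type*} [Fintype V] [DecidableEq V] {G : SimpleGraph V} [DecidableRel G.Adj]

theorem cnt_mu_eq (x y w : V) : cnt G (mu G x y) w = ∑ a, ee G x a * ee G w a * ee G y a := by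
  rw [cnt, mu, sum_filter]
  refine sum_congr rfl fun a _ => ?_
  rw [ee_comm a w]
  by_cases h1 : G.Adj x a <;> by_cases h2 : G.Adj y a <;> simp [h1, h2, ee]

theorem cnt_mu_comm (x y w : V) : cnt G (mu G x y) w = cnt G (mu G x w) y := by
  rw [cnt_mu_eq, cnt_mu_eq]
  exact sum_congr rfl fun a _ => by ring

theorem cnt_erase {L : Finset V} {x : V} (hx : x ∈ L) (a : V) :
    cnt G (L.erase x) a = cnt G L a - ee G x a := by
  rw [cnt, cnt, ← add_sum_erase L _ hx]; ring

theorem IsLine.row_sum (h : G.IsSRGWith 77 16 0 4) {L : Finset V} (hL : IsLine G L) {x w : V}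
    (hx : x ∈ L) (hwx : w ≠ x) (hn : ¬ G.Adj x w) :
    ∑ y ∈ L.erase x, cnt G (mu G x y) w = 4 := by
  simp only [cnt_mu_eq]
  rw [sum_comm]
  have : ∀ a, ∑ y ∈ L.erase x, ee G x a * ee G w a * ee G y a = ee G x a * ee G w a := by
    intro a
    rw [← mul_sum, ← cnt, cnt_erase hx]
    by_cases h1 : G.Adj x a
    · have h2 : cnt G L a ≠ 0 := fun h' => cnt_eq_zero.1 h' x hx h1
      rw [(hL.2.2 a).resolve_left h2, ee_adj h1]; ring
    · rw [ee_not h1]; ring
  rw [sum_congr rfl fun a _ => this a, sum_ee_mul h, if_neg hwx.symm, ee_not hn]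
  norm_num

/-- If one point of a line `M` meeting `L` has no neighbour on `L`, there are no edges between
`L` and `M`. -/
theorem IsLine.no_edges (h : G.IsSRGWith 77 16 0 4) {L M : Finset V} (hL : IsLine G L)
    (hM : IsLine G M) {x z : V} (hxL : x ∈ L) (hxM : x ∈ M) (hzM : z ∈ M) (hzL : z ∉ L)
    (hz : cnt G L z = 0) : ∀ y ∈ L, cnt G M y = 0 := by
  have hzx : z ≠ x := fun h' => hzL (h' ▸ hxL)
  have s1 : ∀ y ∈ L.erase x, 1 ≤ cnt G (mu G x y) z := by
    intro y hy
    have hyL := mem_of_mem_erase hy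
    have hxy := (ne_of_mem_erase hy).symm
    by_contra h0
    have h1 : cnt G (mu G x y) z = 0 := by have := cnt_nonneg (G := G) (mu G x y) z; omega
    apply hzL
    rw [← tL_eq_two (G := G), hL.tL_eq h hxL hyL hxy, tP_far hzx (fun h' => hzL (h' ▸ hyL)) hxy
      (hM.not_adj hxM hzM) (cnt_eq_zero.1 hz y hyL), h1]
    norm_num
  have s2 : ∀ y ∈ L.erase x, cnt G (mu G x y) z ≤ 1 := by
    intro y hy
    have e := hL.row_sum h hxL hzx (hM.not_adj hxM hzM)
    rw [← add_sum_erase _ _ hy] at e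
    have := card_nsmul_le_sum ((L.erase x).erase y) (fun y => cnt G (mu G x y) z) 1
      (fun y' hy' => s1 y' (mem_of_mem_erase hy'))
    rw [card_erase_of_mem hy, card_erase_of_mem hxL, hL.1] at this
    simp only [nsmul_eq_mul] at this
    omega
  intro y hyL
  by_cases hyx : y = x
  · rw [hyx]; exact hM.2.1 x hxM
  by_contra h0
  have h2 := (hM.2.2 y).resolve_left h0
  have hy : y ∈ L.erase x := mem_erase.2 ⟨hyx, hyL⟩
  have hz' : z ∈ M.erase x := mem_erase.2 ⟨hzx, hzM⟩
  have e := hM.row_sum h hxM hyx (hL.not_adj hxL hyL)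
  have e2 : cnt G (M.erase x) y = 2 := by
    rw [cnt_erase hxM, h2, ee_not (hL.not_adj hxL hyL)]; norm_num
  have tot : ∑ y' ∈ M.erase x, (cnt G (mu G x y') y + 2 * ee G y' y) = 8 := by
    rw [sum_add_distrib, e, ← mul_sum, ← cnt, e2]; norm_num
  rw [← add_sum_erase _ _ hz', ee_not (fun h' => cnt_eq_zero.1 hz y hyL h'.symm),
    cnt_mu_comm] at tot
  have b1 := s2 y hy
  have b2 := sum_le_card_nsmul ((M.erase x).erase z)
    (fun y' => cnt G (mu G x y') y + 2 * ee G y' y) 2 (fun y' hy' => by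
      have hy'' := mem_of_mem_erase hy'
      by_cases ha : G.Adj y' y
      · rw [ee_adj ha, cnt_eq_zero.2 fun a h' => no_triangle h (mem_mu.1 h').2 ha]
        norm_num
      · have hne : y' ≠ y := by
          rintro rfl
          exact hzL (hM.unique h hL hxM (mem_of_mem_erase hy'') hxL hyL (Ne.symm hyx) ▸ hzM)
        have := no_k33 h (ne_of_mem_erase hy'').symm (Ne.symm hyx) hne
        rw [ee_not ha]
        omega)
  rw [card_erase_of_mem hz', card_erase_of_mem hxM, hM.1] at b2
  simp only [nsmul_eq_mul] at b2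
  omega

theorem sum_split (z : V) (φ : V → ℤ) :
    ∑ w, φ w = φ z + ∑ w, ee G z w * φ w +
      ∑ w ∈ univ.filter (fun w => w ≠ z ∧ ¬ G.Adj z w), φ w := by
  rw [sum_filter, add_assoc, ← sum_add_distrib, ← add_sum_erase _ _ (mem_univ z),
    ← add_sum_erase _ _ (mem_univ z), ee_not (G.loopless.irrefl z)]
  simp only [ne_eq, not_true_eq_false, false_and, if_false, zero_mul, add_zero, zero_add]
  congr 1
  refine sum_congr rfl fun w hw => ?_
  by_cases h1 : G.Adj z w
  · simp [ee, h1]
  · simp [ee, h1, ne_of_mem_erase hw]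

/-- Parity step: for `z` off the line `L` without neighbours on it. -/
theorem IsLine.sigma (h : G.IsSRGWith 77 16 0 4) {L : Finset V} (hL : IsLine G L) {z : V}
    (hzL : z ∉ L) (hz : cnt G L z = 0) {w : V} (hwz : w ≠ z) (hn : ¬ G.Adj z w) :
    ∑ a ∈ mu G z w, tL G L a = 0 ∨ ∑ a ∈ mu G z w, tL G L a = 2 := by
  have hE := hL.eig h
  have tz : tL G L z = 1 := by rw [tL, if_neg hzL, if_pos hz]
  have nbz : ∑ a, ee G z a * tL G L a = 6 := by have := hE z; omega
  have st : ∑ y, tL G L y = 42 := by have := hE.sum h; omega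
  set Γ : Finset V := univ.filter (fun w => w ≠ z ∧ ¬ G.Adj z w) with hΓ
  have hΓc : #Γ = 60 := by have := srg_card_non_adj h z; rw [← hΓ] at this; omega
  set ρ : V → ℤ := fun w => ∑ a ∈ mu G z w, tL G L a + 2 * tL G L w with hρ
  have hsum : ∑ w ∈ Γ, ρ w = 160 := by
    have e1 : ∑ w ∈ Γ, tL G L w = 35 := by
      have := sum_split (G := G) z (tL G L)
      rw [← hΓ] at this
      omega
    have e2 : ∀ a, G.Adj z a → ∑ w ∈ Γ, ee G a w = 15 := by
      intro a ha
      have := sum_split (G := G) z (ee G a)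
      rw [← hΓ, sum_ee h, sum_ee_mul h, if_neg ha.ne, ee_adj ha, ee_adj ha.symm] at this
      omega
    have e3 : ∑ w ∈ Γ, ∑ a ∈ mu G z w, tL G L a = 90 := by
      have : ∀ w ∈ Γ, ∑ a ∈ mu G z w, tL G L a = ∑ a, ee G z a * tL G L a * ee G a w := by
        intro w _
        rw [mu, sum_filter]
        refine sum_congr rfl fun a _ => ?_
        by_cases h1 : G.Adj z a <;> by_cases h2 : G.Adj w a <;> simp [h1, h2, ee, G.adj_comm a w]
      rw [sum_congr rfl this, sum_comm]
      have : ∀ a, ∑ w ∈ Γ, ee G z a * tL G L a * ee G a w = 15 * (ee G z a * tL G L a) := by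
        intro a
        rw [← mul_sum]
        by_cases h1 : G.Adj z a
        · rw [e2 a h1]; ring
        · rw [ee_not h1]; ring
      rw [sum_congr rfl fun a _ => this a, ← mul_sum, nbz]
      norm_num
    simp only [hρ, sum_add_distrib, ← mul_sum, e1, e3]
    norm_num
  have hρM : ∀ M, IsLine G M → z ∈ M → ∀ w ∈ M, w ≠ z →
      ∑ s ∈ M, tL G L s = 2 * ρ w - 2 := by
    intro M hM hzM w hw hwz
    have := hM.pair h hzM hw hwz.symm hE
    simp only [hρ]
    omega
  have low : ∀ w ∈ Γ, 2 ≤ ρ w := by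
    intro w hw
    simp only [hΓ, mem_filter, mem_univ, true_and] at hw
    obtain ⟨M, hM, hzM, hwM⟩ := exists_line_mem h hw.1.symm hw.2
    have e := hρM M hM hzM w hwM hw.1
    have := single_le_sum (f := tL G L) (fun s _ => tL_nonneg L s) hzM
    omega
  have hch : ∀ y, ∃ M, y ∈ L → IsLine G M ∧ z ∈ M ∧ y ∈ M := by
    intro y
    by_cases hy : y ∈ L
    · obtain ⟨M, hM⟩ := exists_line_mem h (u := z) (v := y) (fun h' => hzL (h' ▸ hy))
        (fun h' => cnt_eq_zero.1 hz y hy h'.symm)
      exact ⟨M, fun _ => hM⟩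
    · exact ⟨∅, fun h' => absurd h' hy⟩
  choose M hM using hch
  have hML : ∀ y ∈ L, ∀ s ∈ M y, s ∈ L → s = y := by
    intro y hy s hs hsL
    by_contra hne
    exact hzL ((hM y hy).1.unique h hL hs (hM y hy).2.2 hsL hy hne ▸ (hM y hy).2.1)
  have htM : ∀ y ∈ L, ∀ s ∈ M y, s ≠ y → tL G L s = 1 := by
    intro y hy s hs hsy
    rw [tL, if_neg (fun h' => hsy (hML y hy s hs h')), if_pos]
    refine cnt_eq_zero.2 fun y' hy' hadj => ?_
    exact cnt_eq_zero.1 (hL.no_edges h (hM y hy).1 hy (hM y hy).2.2 (hM y hy).2.1 hzL hz y' hy')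
      s hs hadj.symm
  set W : Finset V := L.biUnion fun y => (M y).erase z with hW
  have hWc : #W = 20 := by
    rw [hW, card_biUnion, sum_congr rfl (g := fun _ => 4), sum_const, hL.1]
    · norm_num
    · intro y hy
      rw [card_erase_of_mem (hM y hy).2.1, (hM y hy).1.1]
    · intro y hy y' hy' hne
      rw [Function.onFun, disjoint_left]
      intro s h1 h2
      have := (hM y hy).1.unique h (hM y' hy').1 (mem_of_mem_erase h1) (hM y hy).2.1
        (mem_of_mem_erase h2) (hM y' hy').2.1 (ne_of_mem_erase h1)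
      exact hne (hML y' hy' y (this ▸ (hM y hy).2.2) hy)
  have hWΓ : W ⊆ Γ := by
    intro s hs
    simp only [hW, mem_biUnion] at hs
    obtain ⟨y, hy, hs⟩ := hs
    simp only [hΓ, mem_filter, mem_univ, true_and]
    exact ⟨ne_of_mem_erase hs, (hM y hy).1.not_adj (hM y hy).2.1 (mem_of_mem_erase hs)⟩
  have hW4 : ∀ s ∈ W, ρ s = 4 ∧ 1 ≤ tL G L s := by
    intro s hs
    simp only [hW, mem_biUnion] at hs
    obtain ⟨y, hy, hs⟩ := hs
    have e := hρM (M y) (hM y hy).1 (hM y hy).2.1 s (mem_of_mem_erase hs) (ne_of_mem_erase hs)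
    rw [← add_sum_erase _ _ (hM y hy).2.2, tL_eq_two.2 hy, sum_eq_card_mul (c := 1)
      (fun s hs => htM y hy s (mem_of_mem_erase hs) (ne_of_mem_erase hs)),
      card_erase_of_mem (hM y hy).2.2, (hM y hy).1.1] at e
    refine ⟨by omega, ?_⟩
    by_cases hsy : s = y
    · rw [hsy, tL_eq_two.2 hy]; norm_num
    · rw [htM y hy s (mem_of_mem_erase hs) hsy]
  have hrest : ∀ s ∈ Γ \ W, ρ s = 2 := by
    rw [← sum_sdiff hWΓ, sum_eq_card_mul (S := W) (c := 4) (fun s hs => (hW4 s hs).1), hWc] at hsum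
    have e : ∑ s ∈ Γ \ W, (ρ s - 2) = 0 := by
      rw [sum_sub_distrib, sum_const, card_sdiff_of_subset hWΓ, hΓc, hWc]
      simp only [nsmul_eq_mul]
      omega
    intro s hs
    have := (sum_eq_zero_iff_of_nonneg fun s hs => by
      have := low s (mem_sdiff.1 hs).1; omega).1 e s hs
    omega
  have hwΓ : w ∈ Γ := by simp [hΓ, hwz, hn]
  have h0 : 0 ≤ ∑ a ∈ mu G z w, tL G L a := sum_nonneg fun a _ => tL_nonneg L a
  have h1 := tL_nonneg (G := G) L w
  have h2 : ρ w = ∑ a ∈ mu G z w, tL G L a + 2 * tL G L w := rfl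
  by_cases hwW : w ∈ W
  · have := hW4 w hwW
    omega
  · have := hrest w (mem_sdiff.2 ⟨hwΓ, hwW⟩)
    omega

variable (G) in
/-- A point: a coclique such that every vertex outside has six neighbours in it. -/
def IsPt (P : Finset V) : Prop := ∀ w, cnt G P w + 6 * ind P w = 6

theorem IsPt.eig {P : Finset V} (hP : IsPt G P) : Eig G 6 (ind P) := fun w => by
  rw [sum_ee_ind, hP w]

theorem IsPt.card (h : G.IsSRGWith 77 16 0 4) {P : Finset V} (hP : IsPt G P) : #P = 21 := by
  have := hP.eig.sum h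
  simp only [ind, sum_boole, filter_mem_eq_inter, univ_inter] at this
  omega

theorem IsPt.not_adj {P : Finset V} (hP : IsPt G P) {x y : V} (hx : x ∈ P) (hy : y ∈ P) :
    ¬ G.Adj x y := by
  have := hP y
  rw [ind_mem hy] at this
  exact cnt_eq_zero.1 (by omega) x hx

theorem IsPt.line_subset (h : G.IsSRGWith 77 16 0 4) {P L : Finset V} (hP : IsPt G P)
    (hL : IsLine G L) {u v : V} (hu : u ∈ L) (hv : v ∈ L) (huv : u ≠ v) (hu' : u ∈ P)
    (hv' : v ∈ P) : L ⊆ P := by
  have := hL.pair h hu hv huv hP.eig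
  rw [ind_mem hu', ind_mem hv', sum_eq_card_mul (S := mu G u v) (c := 0)
    (fun a ha => ind_not fun h' => hP.not_adj hu' h' (mem_mu.1 ha).1)] at this
  simp only [ind, sum_boole, filter_mem_eq_inter] at this
  have h5 : #(L ∩ P) = 5 := by omega
  exact inter_eq_left.1 (eq_of_subset_of_card_le inter_subset_left (by rw [h5, hL.1]))

theorem IsLine.exists_pt (h : G.IsSRGWith 77 16 0 4) {L : Finset V} (hL : IsLine G L) {z : V}
    (hzL : z ∉ L) (hz : cnt G L z = 0) :
    ∃ P, (IsPt G P ∧ L ⊆ P ∧ z ∉ P) ∧ ∀ Q, IsPt G Q → L ⊆ Q → z ∉ Q → Q = P := by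
  have hE := hL.eig h
  have tz : tL G L z = 1 := by rw [tL, if_neg hzL, if_pos hz]
  set S : Finset V := univ.filter fun c => G.Adj z c ∧ cnt G L c = 0 with hS
  have hSt : ∀ c, G.Adj z c → tL G L c = ind S c := by
    intro c hc
    rw [tL, if_neg (fun h' => cnt_eq_zero.1 hz c h' hc.symm)]
    simp [ind, hS, hc]
  have hSadj : ∀ c ∈ S, G.Adj z c := fun c hc => (mem_filter.1 hc).2.1
  have hSc : #S = 6 := by
    have e := hE z
    have : ∀ c, ee G z c * tL G L c = ind S c := by
      intro c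
      by_cases hc : G.Adj z c
      · rw [ee_adj hc, hSt c hc, one_mul]
      · rw [ee_not hc, ind_not (fun h' => hc (hSadj c h')), zero_mul]
    simp only [this, tz, ind, sum_boole, filter_mem_eq_inter, univ_inter] at e
    omega
  have hcS : ∀ w, cnt G S w = ∑ a ∈ mu G z w, tL G L a := by
    intro w
    rw [sum_congr rfl (g := fun a => if a ∈ S then (1 : ℤ) else 0)
      fun a ha => hSt a (mem_mu.1 ha).1, cnt_eq_card, sum_boole]
    refine congrArg _ (congrArg _ ?_)
    ext1 a
    simp only [hS, mem_filter, mem_mu, mem_univ, true_and, G.adj_comm a w]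
    tauto
  have hF := Eig.comb h (eig_gS h S) (eig_gS h {z}) 1 2 2
  rw [hSc, card_singleton] at hF
  set f : V → ℤ := fun y => 2 + 1 * gS G S y + 2 * gS G {z} y with hf
  have fz : f z = 0 := by
    have : cnt G S z = 6 := by
      rw [cnt, sum_eq_card_mul (c := 1) fun c hc => ee_adj (hSadj c hc).symm, hSc]; norm_num
    simp only [hf, gS, this, ind_not (fun h' => G.loopless.irrefl z (hSadj z h')),
      ind_mem (mem_singleton_self z)]
    rw [cnt, sum_singleton, ee_not (G.loopless.irrefl z)]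
    norm_num
  have fadj : ∀ w, G.Adj z w → f w = 2 * ind S w := by
    intro w hw
    have : cnt G S w = 0 := cnt_eq_zero.2 fun c hc => no_triangle h (hSadj c hc) hw
    simp only [hf, gS, this, ind_not (S := {z}) (fun h' => hw.ne' (mem_singleton.1 h'))]
    rw [cnt, sum_singleton, ee_adj hw]
    ring
  have ffar : ∀ w, w ≠ z → ¬ G.Adj z w → f w = 2 - cnt G S w := by
    intro w hwz hw
    simp only [hf, gS, ind_not (S := {z}) (fun h' => hwz (mem_singleton.1 h')),
      ind_not (fun h' => hw (hSadj w h'))]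
    rw [show cnt G {z} w = 0 by rw [cnt, sum_singleton, ee_not hw]]
    ring
  set P : Finset V := univ.filter fun w => f w = 2 with hP
  have hfP : ∀ w, f w = 2 * ind P w := by
    intro w
    have : f w = 0 ∨ f w = 2 := by
      by_cases h1 : w = z
      · exact Or.inl (h1 ▸ fz)
      by_cases h2 : G.Adj z w
      · rw [fadj w h2, ind]; split_ifs <;> simp
      · rw [ffar w h1 h2, hcS]
        have := hL.sigma h hzL hz h1 h2
        omega
    rcases this with h' | h'
    · rw [ind_not (by simp [hP, h']), h']; norm_num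
    · rw [ind_mem (by simp [hP, h']), h']; norm_num
  have hPt : IsPt G P := by
    intro w
    have := hF w
    simp only [hfP, mul_left_comm _ (2 : ℤ), ← mul_sum, sum_ee_ind] at this
    omega
  refine ⟨P, ⟨hPt, fun y hy => ?_, by simp [hP, fz]⟩, fun Q hQ hLQ hzQ => ?_⟩
  · simp only [hP, mem_filter, mem_univ, true_and]
    rw [ffar y (fun h' => hzL (h' ▸ hy)) (fun h' => cnt_eq_zero.1 hz y hy h'.symm),
      cnt_eq_zero.2 fun c hc hcy => cnt_eq_zero.1 (mem_filter.1 hc).2.2 y hy hcy.symm]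
    norm_num
  · have hT : ({s ∈ Q | G.Adj s z} : Finset V) = S := by
      refine eq_of_subset_of_card_le (fun c hc => ?_) ?_
      · rw [mem_filter] at hc
        simp only [hS, mem_filter, mem_univ, true_and]
        exact ⟨hc.2.symm, cnt_eq_zero.2 fun y hy => hQ.not_adj (hLQ hy) hc.1⟩
      · have := hQ z
        rw [ind_not hzQ, cnt_eq_card] at this
        omega
    refine eq_of_subset_of_card_le (fun w hw => ?_) (by rw [hPt.card h, hQ.card h])
    simp only [hP, mem_filter, mem_univ, true_and]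
    by_cases h2 : G.Adj z w
    · rw [fadj w h2, ind_mem (hT ▸ mem_filter.2 ⟨hw, h2.symm⟩)]; norm_num
    · rw [ffar w (fun h' => hzQ (h' ▸ hw)) h2, cnt_eq_zero.2 fun c hc =>
        hQ.not_adj (mem_filter.1 (hT ▸ hc : c ∈ {s ∈ Q | G.Adj s z})).1 hw]
      norm_num

/-- Two non-adjacent vertices lie in exactly two points. -/
theorem exists_two_pts (h : G.IsSRGWith 77 16 0 4) {u v : V} (huv : u ≠ v) (hn : ¬ G.Adj u v) :
    ∃ P Q, P ≠ Q ∧ ∀ R, (IsPt G R ∧ u ∈ R ∧ v ∈ R) ↔ R = P ∨ R = Q := by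
  obtain ⟨L, hL, hu, hv⟩ := exists_line_mem h huv hn
  obtain ⟨z, hzL, hz⟩ : ∃ z, z ∉ L ∧ cnt G L z = 0 := by
    by_contra hc
    push Not at hc
    have e := (hL.eig h).sum h
    have : ∀ y, tL G L y = 2 * ind L y := by
      intro y
      unfold tL ind
      by_cases hy : y ∈ L
      · simp [hy]
      · simp [hy, hc y hy]
    simp only [this, ← mul_sum, ind, sum_boole, filter_mem_eq_inter, univ_inter, hL.1] at e
    omega
  obtain ⟨P, ⟨hP, hLP, hzP⟩, huP⟩ := hL.exists_pt h hzL hz
  obtain ⟨z', hz'P, hzz'⟩ : ∃ z' ∈ P, G.Adj z' z := by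
    by_contra hc
    push Not at hc
    have := hP z
    rw [cnt_eq_zero.2 hc, ind_not hzP] at this
    omega
  obtain ⟨Q, ⟨hQ, hLQ, hzQ⟩, huQ⟩ := hL.exists_pt h (z := z')
    (fun h' => cnt_eq_zero.1 hz z' h' hzz') (cnt_eq_zero.2 fun y hy => hP.not_adj (hLP hy) hz'P)
  refine ⟨P, Q, fun h' => hzQ (h' ▸ hz'P), fun R => ⟨?_, ?_⟩⟩
  · rintro ⟨hR, huR, hvR⟩
    have hLR := hR.line_subset h hL hu hv huv huR hvR
    by_cases h1 : z ∈ R
    · exact Or.inr (huQ R hR hLR fun h2 => hR.not_adj h2 h1 hzz')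
    · exact Or.inl (huP R hR hLR h1)
  · rintro (rfl | rfl)
    · exact ⟨hP, hLP hu, hLP hv⟩
    · exact ⟨hQ, hLQ hu, hLQ hv⟩

open Classical in
variable (G) in
/-- The block of a vertex: the points containing it. -/
noncomputable def blk (x : V) : Finset {P : Finset V // IsPt G P} := univ.filter fun P => x ∈ P.1

open Classical in
theorem card_blk_inter (h : G.IsSRGWith 77 16 0 4) {u v : V} (huv : u ≠ v) :
    #(blk G u ∩ blk G v) = if G.Adj u v then 0 else 2 := by
  rw [blk, blk, ← filter_and]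
  split_ifs with hn
  · rw [card_eq_zero, filter_eq_empty_iff]
    rintro P - ⟨h1, h2⟩
    exact P.2.not_adj h1 h2 hn
  · obtain ⟨P, Q, hPQ, hR⟩ := exists_two_pts h huv hn
    have hP := (hR P).2 (Or.inl rfl)
    have hQ := (hR Q).2 (Or.inr rfl)
    rw [card_eq_two]
    refine ⟨⟨P, hP.1⟩, ⟨Q, hQ.1⟩, fun h' => hPQ (congrArg Subtype.val h'), ?_⟩
    ext R
    simp only [mem_filter, mem_univ, true_and, mem_insert, mem_singleton, Subtype.ext_iff]
    rw [← hR]
    simp [R.2]

open Classical in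
theorem card_blk (h : G.IsSRGWith 77 16 0 4) (x : V) : #(blk G x) = 6 := by
  set Γ : Finset V := univ.filter (fun w => w ≠ x ∧ ¬ G.Adj x w) with hΓ
  have hΓc : #Γ = 60 := by have := srg_card_non_adj h x; rw [← hΓ] at this; omega
  have := Finset.card_mul_eq_card_mul (s := blk G x) (t := Γ) (m := 20) (n := 2)
    (fun P w => w ∈ P.1) (fun P hP => by
      have hx : x ∈ P.1 := by simpa [blk] using hP
      have : bipartiteAbove (fun (P : {P : Finset V // IsPt G P}) w => w ∈ P.1) Γ P =
          P.1.erase x := by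
        ext w
        simp only [bipartiteAbove, hΓ, mem_filter, mem_univ, true_and, mem_erase]
        exact ⟨fun h' => ⟨h'.1.1, h'.2⟩, fun h' => ⟨⟨h'.1, P.2.not_adj hx h'.2⟩, h'.2⟩⟩
      rw [this, card_erase_of_mem hx, P.2.card h]) (fun w hw => by
      simp only [hΓ, mem_filter, mem_univ, true_and] at hw
      have := card_blk_inter h hw.1.symm
      rw [if_neg hw.2] at this
      rw [← this]
      congr 1
      ext P
      simp [bipartiteBelow, blk])
  omega

open Classical in
theorem card_pts (h : G.IsSRGWith 77 16 0 4) : Fintype.card {P : Finset V // IsPt G P} = 22 := by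
  have := Finset.card_mul_eq_card_mul (s := (univ : Finset {P : Finset V // IsPt G P}))
    (t := (univ : Finset V)) (m := 21) (n := 6)
    (fun P w => w ∈ P.1) (fun P _ => by
      rw [← P.2.card h]
      congr 1
      ext w
      simp [bipartiteAbove]) (fun w _ => by
      rw [← card_blk h w]
      congr 1)
  rw [card_univ, card_univ, h.card] at this
  omega

open Classical in
theorem blk_steiner (h : G.IsSRGWith 77 16 0 4) :
    IsSteinerSystem 3 6 {c | ∃ x ∈ (univ : Finset V), c = blk G x} := by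
  apply steiner_of_count
  · exact fun x _ => card_blk h x
  · intro x _ y _ hxy
    rw [card_blk_inter h hxy]
    split_ifs <;> norm_num
  · rw [card_univ, h.card, card_pts h]
    norm_num [Nat.choose]

open Classical in
theorem blk_iso (h : G.IsSRGWith 77 16 0 4) :
    Nonempty (G ≃g blockGraph {c | ∃ x ∈ (univ : Finset V), c = blk G x}) := by
  have hf : Function.Bijective (fun x : V => (⟨blk G x, x, mem_univ x, rfl⟩ :
      {c | ∃ x ∈ (univ : Finset V), c = blk G x})) := by
    constructor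
    · intro x y hxy
      by_contra hne
      have := card_blk_inter h hne
      rw [← show blk G x = blk G y from congrArg Subtype.val hxy, inter_self, card_blk h] at this
      split_ifs at this
      omega
    · rintro ⟨c, x, -, rfl⟩
      exact ⟨x, rfl⟩
  refine ⟨⟨Equiv.ofBijective _ hf, ?_⟩⟩
  intro x y
  rw [D22.blockGraph_adj (blk_steiner h)]
  change Disjoint (blk G y) (blk G x) ↔ _
  by_cases hxy : x = y
  · subst hxy
    exact iff_of_false (D22.block_nonempty (blk_steiner h) ⟨x, mem_univ x, rfl⟩)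
      (G.loopless.irrefl x)
  · rw [disjoint_comm, disjoint_iff_inter_eq_empty, ← card_eq_zero, card_blk_inter h hxy]
    split_ifs with h' <;> simp [h']

end Cfsg.Agent.Spor.Srg77
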