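import Mathlib
import Cfsg.Agent.Spor.Dodecad

/-!
# The standard `S(5, 6, 12)` on `Fin 12`, explicit generators of `M12` and `M11`
-/

set_option autoImplicit false

namespace Cfsg.Agent.Spor.SC

open Finset MulAction
open scoped Pointwise

theorem steiner_fam12 : IsSteinerSystem 5 6 (fam 12 L12) := by
  have hd := Dod.squareDodecad_mem
  obtain ⟨x⟩ : Nonempty (Fin 5 ↪ {p // p ∈ Cfsg.Spor.squareDodecad}) :=
    nonempty_emb_of_card (by rw [Dod.card_subtype_dodecad hd]; norm_num)
  obtain ⟨e, -, he⟩ := exists_labelling check12 covers12 (Dod.card_subtype_dodecad hd)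
    (Dod.steiner_hexSys hd) x
  exact he ▸ steiner_tr e (Dod.steiner_hexSys hd)

theorem ms_inj {n a b : ℕ} (ha : a < 2 ^ n) (hb : b < 2 ^ n) (h : ms n a = ms n b) : a = b := by
  apply Nat.eq_of_testBit_eq
  intro i
  by_cases hi : i < n
  · have := congrArg ((⟨i, hi⟩ : Fin n) ∈ ·) h
    simp only [mem_ms, eq_iff_iff] at this
    exact Bool.eq_iff_iff.2 this
  · rw [Nat.testBit_lt_two_pow (ha.trans_le (Nat.pow_le_pow_right (by norm_num) (not_lt.1 hi))),
      Nat.testBit_lt_two_pow (hb.trans_le (Nat.pow_le_pow_right (by norm_num) (not_lt.1 hi)))]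

theorem ncard_fam_filter {n : ℕ} {L : List ℕ} (hL : L.Nodup) (hlt : ∀ k ∈ L, k < 2 ^ n)
    (P : Finset (Fin n) → Prop) (q : ℕ → Bool) (h : ∀ k ∈ L, P (ms n k) ↔ q k = true) :
    {c | c ∈ fam n L ∧ P c}.ncard = L.countP q := by
  rw [List.countP_eq_length_filter, ← List.toFinset_card_of_nodup (hL.filter _),
    ← Set.ncard_coe_finset, ← Set.InjOn.ncard_image (f := ms n)]
  · congr 1
    ext c
    simp only [Set.mem_ofPred_eq, List.coe_toFinset, List.mem_filter, Set.mem_image]
    constructor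
    · rintro ⟨⟨k, hk, rfl⟩, hP⟩
      exact ⟨k, ⟨hk, (h k hk).1 hP⟩, rfl⟩
    · rintro ⟨k, ⟨hk, hq⟩, rfl⟩
      exact ⟨⟨k, hk, rfl⟩, (h k hk).2 hq⟩
  · intro a ha b hb hab
    simp only [List.coe_toFinset, List.mem_filter, Set.mem_ofPred_eq] at ha hb
    exact ms_inj (hlt a ha.1) (hlt b hb.1) hab

theorem L12_nodup : L12.Nodup := by decide +kernel

theorem ncard_tr {α β : Type*} [DecidableEq β] (e : α ≃ β) (B : Set (Finset α)) :
    (tr e B).ncard = B.ncard :=
  Set.ncard_image_of_injective _ (image_injective e.injective)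

theorem ncard_fam12 : (fam 12 L12).ncard = 132 := by
  have := ncard_fam_filter L12_nodup L12_lt (fun _ => True) (fun _ => true) (by simp)
  simp only [and_true, List.countP_true] at this
  exact this

theorem mem_aut_of_subset {α : Type*} [Finite α] [DecidableEq α] {B : Set (Finset α)}
    {g : Equiv.Perm α} (h : ∀ b ∈ B, b.image g ∈ B) : g ∈ setSystemAut B := by
  rw [mem_aut_iff]
  apply Set.eq_of_subset_of_ncard_le _ (ncard_tr g B).ge
  rintro _ ⟨b, hb, rfl⟩
  exact h b hb

theorem mem_aut_fam {n : ℕ} {L : List ℕ} {g : Equiv.Perm (Fin n)} (c : ℕ)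
    (hc : ∀ i, (g i : ℕ) = ap c i) (h : (L.all fun k => elem (act c k n) L) = true) :
    g ∈ setSystemAut (fam n L) := by
  refine mem_aut_of_subset ?_
  rintro _ ⟨k, hk, rfl⟩
  exact ⟨_, (elem_iff _ _).1 (List.all_eq_true.1 h k hk), (image_ms g c k fun i _ => hc i).symm⟩

theorem mem_aut_tr {α : Type*} [DecidableEq α] {n : ℕ} {L : List ℕ} (e : α ≃ Fin n)
    {g : Equiv.Perm α} (c : ℕ) (hc : ∀ i, (e (g (e.symm i)) : ℕ) = ap c i)
    (h : (L.all fun k => elem (act c k n) L) = true) :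
    g ∈ setSystemAut (tr e.symm (fam n L)) := by
  have := permCongr_mem_aut e.symm (mem_aut_fam (g := e.permCongr g) c hc h)
  rwa [show e.symm.permCongr (e.permCongr g) = g from e.permCongr.symm_apply_apply g] at this

/-- A labelling sending a given block to the first six points. -/
theorem exists_labelling_block {α : Type*} [Fintype α] [DecidableEq α] (hα : Fintype.card α = 12)
    {B : Set (Finset α)} (hB : IsSteinerSystem 5 6 B) {b : Finset α} (hb : b ∈ B) :
    ∃ e : α ≃ Fin 12, tr e B = fam 12 L12 ∧ b.image e = ms 12 63 := by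
  obtain ⟨y⟩ : Nonempty (Fin 5 ↪ b) := nonempty_emb_of_card (by
    rw [Fintype.card_coe, hB.1 b hb]; norm_num)
  obtain ⟨e, he, hB'⟩ := exists_labelling check12 covers12 hα hB
    (y.trans (Function.Embedding.subtype _))
  refine ⟨e, hB', steiner_eq_of_le steiner_fam12 (hB' ▸ (image_mem_tr e B b).2 hb)
    ⟨63, by decide +kernel, rfl⟩ ?_⟩
  have : ms 12 31 ⊆ b.image e ∩ ms 12 63 := by
    refine subset_inter (fun i hi => ?_) (by decide +kernel)
    have h5 : (i : ℕ) < 5 := by revert i; decide +kernel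
    exact mem_image.2 ⟨_, (y ⟨i, h5⟩).2, Fin.ext (he ⟨i, h5⟩)⟩
  exact le_trans (by decide +kernel) (card_le_card this)

/-! ### Lower bounds for orders of permutation groups -/

section chain
variable {α : Type*} [DecidableEq α]

/-- Check of a list of steps `(i, x, y)`: the `i`-th permutation maps the known point `x` to `y`. -/
def chkReach (gs : List (Equiv.Perm α)) : List (ℕ × α × α) → List α → Bool
  | [], _ => true
  | s :: l, acc => decide (s.2.1 ∈ acc) && decide (gs.getD s.1 1 s.2.1 = s.2.2) &&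
      decide (s.2.2 ∉ acc) && chkReach gs l (s.2.2 :: acc)

/-- The group generated by a list of permutations. -/
abbrev cl (gs : List (Equiv.Perm α)) : Subgroup (Equiv.Perm α) := Subgroup.closure {g | g ∈ gs}

theorem chkReach_spec (gs : List (Equiv.Perm α)) (P : α → Prop)
    (hP : ∀ g ∈ gs, ∀ x, P x → P (g x)) (l : List (ℕ × α × α)) : ∀ acc : List α, acc.Nodup →
      (∀ x ∈ acc, P x) → chkReach gs l acc = true →
      ∃ s : List α, s.Nodup ∧ (∀ x ∈ s, P x) ∧ s.length = l.length + acc.length := by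
  induction l with
  | nil => intro acc h1 h2 _; exact ⟨acc, h1, h2, by simp⟩
  | cons s l ih =>
    intro acc h1 h2 h
    simp only [chkReach, Bool.and_eq_true, decide_eq_true_eq] at h
    obtain ⟨⟨⟨h3, h4⟩, h5⟩, h6⟩ := h
    obtain ⟨t, h7, h8, h9⟩ := ih (s.2.2 :: acc) (List.nodup_cons.2 ⟨h5, h1⟩) (by
      intro x hx
      rcases List.mem_cons.1 hx with rfl | hx
      · rw [← h4, List.getD_eq_getElem?_getD]
        cases h : gs[s.1]? with
        | none => exact h2 _ h3
        | some g => exact hP g (List.mem_of_getElem? h) _ (h2 _ h3)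
      · exact h2 x hx) h6
    exact ⟨t, h7, h8, by rw [h9, List.length_cons, List.length_cons]; omega⟩

theorem le_ncard_orbit [Finite α] (gs : List (Equiv.Perm α)) (a : α) (l : List (ℕ × α × α))
    (h : chkReach gs l [a] = true) : l.length + 1 ≤ (orbit (cl gs) a).ncard := by
  obtain ⟨s, h1, h2, h3⟩ := chkReach_spec gs (· ∈ orbit (cl gs) a) (fun g hg x hx =>
    mem_orbit_of_mem_orbit (⟨g, Subgroup.subset_closure hg⟩ : cl gs) hx) l [a] (by simp) (by simp) h
  rw [List.length_singleton] at h3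
  rw [← h3, ← List.toFinset_card_of_nodup h1, ← Set.ncard_coe_finset]
  exact Set.ncard_le_ncard fun x hx => h2 x (List.mem_toFinset.1 hx)

theorem le_card_chain [Finite α] {gs gs' : List (Equiv.Perm α)} (hsub : ∀ g ∈ gs', g ∈ gs) (a : α)
    (hfix : (gs'.all fun g => decide (g a = a)) = true) (m : ℕ) (l : List (ℕ × α × α)) (h : chkReach gs l [a] = true)
    (hm : m ≤ Nat.card (cl gs')) : (l.length + 1) * m ≤ Nat.card (cl gs) := by
  rw [MB.card_eq_ncard_orbit_mul (cl gs) a]
  refine Nat.mul_le_mul (le_ncard_orbit gs a l h) (hm.trans (Subgroup.card_le_of_le ?_))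
  rw [Subgroup.closure_le]
  exact fun g hg => ⟨Subgroup.subset_closure (hsub g hg),
    (of_decide_eq_true (List.all_eq_true.1 hfix g hg) : g a = a)⟩

end chain

/-! ### Witt's generators -/

open Equiv in
/-- The permutations `s, t, u, v, w, x₁, x₂, x₃`. -/
def wg : ℕ → Perm (Fin 12)
  | 0 => swap 3 5 * swap 3 4 * swap 6 8 * swap 6 7 * swap 9 11 * swap 9 10
  | 1 => swap 3 9 * swap 3 6 * swap 4 10 * swap 4 7 * swap 5 11 * swap 5 8
  | 2 => swap 4 9 * swap 4 5 * swap 4 6 * swap 7 10 * swap 7 11 * swap 7 8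
  | 3 => swap 4 11 * swap 4 5 * swap 4 7 * swap 6 8 * swap 6 9 * swap 6 10
  | 4 => swap 4 8 * swap 4 5 * swap 4 10 * swap 6 7 * swap 6 9 * swap 6 11
  | 5 => swap 0 3 * swap 6 7 * swap 8 10 * swap 9 11
  | 6 => swap 0 1 * swap 6 9 * swap 7 10 * swap 8 11
  | _ => swap 1 2 * swap 6 11 * swap 7 9 * swap 8 10

theorem le_card_wg11 : 7920 ≤ Nat.card (cl [wg 0, wg 1, wg 2, wg 3, wg 4, wg 5, wg 6]) := by
  have h0 : 1 ≤ Nat.card (cl ([] : List (Equiv.Perm (Fin 12)))) := Nat.card_pos
  have h1 : 8 ≤ _ := le_card_chain (gs := [wg 2, wg 3, wg 4]) (by simp) 4 (by simp) 1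
    [(0, 4, 6), (1, 4, 7), (2, 4, 10), (0, 6, 5), (2, 6, 11), (0, 7, 8), (1, 10, 9)]
    (by decide +kernel) h0
  have h2 : 72 ≤ _ := le_card_chain (gs := [wg 0, wg 1, wg 2, wg 3, wg 4]) (by simp) 3
    (by decide +kernel) _
    [(0, 3, 4), (1, 3, 6), (0, 4, 5), (1, 4, 7), (4, 4, 10), (1, 6, 9), (4, 6, 11), (1, 5, 8)]
    (by decide +kernel) h1
  have h3 : 720 ≤ _ := le_card_chain (gs := [wg 0, wg 1, wg 2, wg 3, wg 4, wg 5]) (by simp) 0
    (by decide +kernel) _
    [(5, 0, 3), (0, 3, 4), (1, 3, 6), (0, 4, 5), (1, 4, 7), (4, 4, 10), (1, 6, 9), (4, 6, 11), (1, 5, 8)]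
    (by decide +kernel) h2
  exact le_card_chain (gs := [wg 0, wg 1, wg 2, wg 3, wg 4, wg 5, wg 6]) (by simp) 1
    (by decide +kernel) _
    [(6, 1, 0), (5, 0, 3), (0, 3, 4), (1, 3, 6), (0, 4, 5), (1, 4, 7), (4, 4, 10), (1, 6, 9), (4, 6, 11), (1, 5, 8)]
    (by decide +kernel) h3

theorem le_card_wg12 :
    95040 ≤ Nat.card (cl [wg 0, wg 1, wg 2, wg 3, wg 4, wg 5, wg 6, wg 7]) :=
  le_card_chain (gs := [wg 0, wg 1, wg 2, wg 3, wg 4, wg 5, wg 6, wg 7]) (by simp) 2
    (by decide +kernel) _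
    [(7, 2, 1), (6, 1, 0), (5, 0, 3), (0, 3, 4), (1, 3, 6), (0, 4, 5), (1, 4, 7), (4, 4, 10), (1, 6, 9), (4, 6, 11), (1, 5, 8)]
    (by decide +kernel) le_card_wg11

/-- The labelling relating Witt's generators to the standard system. -/
def wgLab : Fin 12 ≃ Fin 12 :=
  ⟨![0, 1, 2, 3, 4, 5, 9, 10, 6, 8, 7, 11], ![0, 1, 2, 3, 4, 5, 8, 10, 9, 6, 7, 11],
    by decide, by decide⟩

theorem steiner_wg : IsSteinerSystem 5 6 (tr wgLab.symm (fam 12 L12)) :=
  steiner_tr _ steiner_fam12

theorem cl_wg_eq : cl [wg 0, wg 1, wg 2, wg 3, wg 4, wg 5, wg 6, wg 7] =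
    setSystemAut (tr wgLab.symm (fam 12 L12)) := by
  apply Subgroup.eq_of_le_of_card_ge
  · rw [Subgroup.closure_le]
    simp only [List.mem_cons, List.not_mem_nil, or_false]
    rintro g (rfl | rfl | rfl | rfl | rfl | rfl | rfl | rfl)
    exacts [mem_aut_tr wgLab 148054924935696 (by decide +kernel) (by decide +kernel),
      mem_aut_tr wgLab 96221417607696 (by decide +kernel) (by decide +kernel),
      mem_aut_tr wgLab 130106027225616 (by decide +kernel) (by decide +kernel),
      mem_aut_tr wgLab 76375419138576 (by decide +kernel) (by decide +kernel),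
      mem_aut_tr wgLab 151433372971536 (by decide +kernel) (by decide +kernel),
      mem_aut_tr wgLab 151369265971731 (by decide +kernel) (by decide +kernel),
      mem_aut_tr wgLab 113840982602241 (by decide +kernel) (by decide +kernel),
      mem_aut_tr wgLab 167926364909856 (by decide +kernel) (by decide +kernel)]
  · rw [(steiner12_sharp (by simp) steiner_wg).card_twelve (by simp)]
    exact le_card_wg12

end Cfsg.Agent.Spor.SC
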