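import Mathlib
import Cfsg.Agent.Spor.Steiner12

/-!
# The ternary Golay code
-/

set_option autoImplicit false

namespace Cfsg.Agent.Spor.Tern

open Finset MulAction SC

/-- Index of a position of the array. -/
def idx (p : ArrayPt) : ℕ := 3 * p.1.val + p.2.val

/-- The systematic generator matrix. -/
def bm (i j : ℕ) : ℕ := ([[1, 0, 0, 0, 0, 1, 0, 0, 1, 1, 1, 2], [0, 1, 0, 0, 0, 1, 0, 2, 2, 2, 0, 2], [0, 0, 1, 0, 0, 1, 0, 1, 0, 2, 1, 1], [0, 0, 0, 1, 0, 2, 0, 2, 1, 2, 1, 0], [0, 0, 0, 0, 1, 2, 0, 1, 2, 0, 1, 2], [0, 0, 0, 0, 0, 0, 1, 1, 1, 2, 2, 2]].getD i []).getD j 0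

/-- The basis words. -/
def bas (i : Fin 6) (p : ArrayPt) : ZMod 3 := (bm i (idx p) : ℕ)

/-- The information positions. -/
def info : Fin 6 → ArrayPt := ![(0, 0), (0, 1), (0, 2), (1, 0), (1, 1), (2, 0)]

/-- The code word with given information symbols. -/
def enc (a : Fin 6 → ZMod 3) (p : ArrayPt) : ZMod 3 := ∑ i, a i * bas i p

theorem bas_mem (i : Fin 6) : bas i ∈ ternaryGolayCode := by
  refine ⟨![2, 2, 2, 0, 0, 0] i, by revert i; decide +kernel, fun t ht => ?_⟩
  obtain ⟨a, b, rfl⟩ := Submodule.mem_span_pair.1 ht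
  clear ht
  revert i a b
  decide +kernel

theorem enc_eq (a : Fin 6 → ZMod 3) : enc a = ∑ i, a i • bas i := by
  funext p
  simp [enc, Finset.sum_apply]

theorem enc_mem (a : Fin 6 → ZMod 3) : enc a ∈ ternaryGolayCode := by
  rw [enc_eq]
  exact Submodule.sum_mem _ fun i _ => Submodule.smul_mem _ _ (bas_mem i)

theorem enc_info (a : Fin 6 → ZMod 3) (j : Fin 6) : enc a (info j) = a j := by
  have : ∀ i j, bas i (info j) = if i = j then 1 else 0 := by decide +kernel
  simp [enc, this]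

theorem eq_enc {x : ArrayPt → ZMod 3} (hx : x ∈ ternaryGolayCode) :
    x = enc fun i => x (info i) := by
  obtain ⟨s, hs, ht⟩ := hx
  have h3 : (3 : ZMod 3) = 0 := rfl
  have sum3 : ∀ f : ZMod 3 → ZMod 3, ∑ r, f r = f 0 + f 1 + f 2 := fun f => Fin.sum_univ_three f
  have e0 := hs 0
  have e1 := hs 1
  have e2 := hs 2
  have e3 := hs 3
  rw [sum3] at e0 e1 e2 e3
  have t4 : x (0, 0) + x (1, 0) + x (2, 0) + x (3, 0) = s := by
    rw [← ht 0 tetracode.zero_mem, Fin.sum_univ_four]; rfl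
  have t5 : x (0, 1) + x (1, 0) + x (2, 1) + x (3, 2) = s := by
    rw [← ht ![1, 0, 1, 2] (Submodule.subset_span (by simp)), Fin.sum_univ_four]; rfl
  have t7 : x (0, 0) + x (1, 1) + x (2, 1) + x (3, 1) = s := by
    rw [← ht ![0, 1, 1, 1] (Submodule.subset_span (by simp)), Fin.sum_univ_four]; rfl
  funext p
  rw [enc, Fin.sum_univ_six]
  rcases (show ∀ p : ArrayPt, p = (0, 0) ∨ p = (0, 1) ∨ p = (0, 2) ∨ p = (1, 0) ∨ p = (1, 1) ∨ p = (1, 2) ∨ p = (2, 0) ∨ p = (2, 1) ∨ p = (2, 2) ∨ p = (3, 0) ∨ p = (3, 1) ∨ p = (3, 2) by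
    decide +kernel) p with rfl | rfl | rfl | rfl | rfl | rfl | rfl | rfl | rfl | rfl | rfl | rfl
  · change x (0, 0) = x (0, 0) * 1 + x (0, 1) * 0 + x (0, 2) * 0 + x (1, 0) * 0 + x (1, 1) * 0 + x (2, 0) * 0
    ring
  · change x (0, 1) = x (0, 0) * 0 + x (0, 1) * 1 + x (0, 2) * 0 + x (1, 0) * 0 + x (1, 1) * 0 + x (2, 0) * 0
    ring
  · change x (0, 2) = x (0, 0) * 0 + x (0, 1) * 0 + x (0, 2) * 1 + x (1, 0) * 0 + x (1, 1) * 0 + x (2, 0) * 0
    ring
  · change x (1, 0) = x (0, 0) * 0 + x (0, 1) * 0 + x (0, 2) * 0 + x (1, 0) * 1 + x (1, 1) * 0 + x (2, 0) * 0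
    ring
  · change x (1, 1) = x (0, 0) * 0 + x (0, 1) * 0 + x (0, 2) * 0 + x (1, 0) * 0 + x (1, 1) * 1 + x (2, 0) * 0
    ring
  · change x (1, 2) = x (0, 0) * 1 + x (0, 1) * 1 + x (0, 2) * 1 + x (1, 0) * 2 + x (1, 1) * 2 + x (2, 0) * 0
    linear_combination 2 * e0 + 1 * e1 +
      ((-1) * x (0, 0) + (-1) * x (0, 1) + (-1) * x (0, 2) + (-1) * x (1, 0) + (-1) * x (1, 1) + (-1) * s) * h3
  · change x (2, 0) = x (0, 0) * 0 + x (0, 1) * 0 + x (0, 2) * 0 + x (1, 0) * 0 + x (1, 1) * 0 + x (2, 0) * 1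
    ring
  · change x (2, 1) = x (0, 0) * 0 + x (0, 1) * 2 + x (0, 2) * 1 + x (1, 0) * 2 + x (1, 1) * 1 + x (2, 0) * 1
    linear_combination 2 * e0 + 1 * e3 + 2 * t4 + 2 * t5 + 2 * t7 +
      ((-2) * x (0, 0) + (-2) * x (0, 1) + (-1) * x (0, 2) + (-2) * x (1, 0) + (-1) * x (1, 1) + (-1) * x (2, 0) + (-1) * x (2, 1) + (-1) * x (3, 0) + (-1) * x (3, 1) + (-1) * x (3, 2) + (1) * s) * h3
  · change x (2, 2) = x (0, 0) * 1 + x (0, 1) * 2 + x (0, 2) * 0 + x (1, 0) * 1 + x (1, 1) * 2 + x (2, 0) * 1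
    linear_combination 1 * e2 + 2 * e3 + 1 * t4 + 1 * t5 + 1 * t7 +
      ((-1) * x (0, 0) + (-1) * x (0, 1) + (-1) * x (1, 0) + (-1) * x (1, 1) + (-1) * x (2, 0) + (-1) * x (2, 1) + (-1) * x (3, 0) + (-1) * x (3, 1) + (-1) * x (3, 2)) * h3
  · change x (3, 0) = x (0, 0) * 1 + x (0, 1) * 2 + x (0, 2) * 2 + x (1, 0) * 2 + x (1, 1) * 0 + x (2, 0) * 2
    linear_combination 1 * e0 + 1 * t4 +
      ((-1) * x (0, 0) + (-1) * x (0, 1) + (-1) * x (0, 2) + (-1) * x (1, 0) + (-1) * x (2, 0)) * h3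
  · change x (3, 1) = x (0, 0) * 1 + x (0, 1) * 0 + x (0, 2) * 1 + x (1, 0) * 1 + x (1, 1) * 1 + x (2, 0) * 2
    linear_combination 2 * e0 + 2 * e3 + 1 * t4 + 1 * t5 + 2 * t7 +
      ((-2) * x (0, 0) + (-1) * x (0, 1) + (-1) * x (0, 2) + (-1) * x (1, 0) + (-1) * x (1, 1) + (-1) * x (2, 0) + (-1) * x (2, 1) + (-1) * x (3, 0) + (-1) * x (3, 1) + (-1) * x (3, 2)) * h3
  · change x (3, 2) = x (0, 0) * 2 + x (0, 1) * 2 + x (0, 2) * 1 + x (1, 0) * 0 + x (1, 1) * 2 + x (2, 0) * 2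
    linear_combination 2 * e0 + 2 * e3 + 1 * t4 + 2 * t5 + 1 * t7 +
      ((-2) * x (0, 0) + (-2) * x (0, 1) + (-1) * x (0, 2) + (-1) * x (1, 0) + (-1) * x (1, 1) + (-1) * x (2, 0) + (-1) * x (2, 1) + (-1) * x (3, 0) + (-1) * x (3, 1) + (-1) * x (3, 2)) * h3

theorem mem_iff {x : ArrayPt → ZMod 3} :
    x ∈ ternaryGolayCode ↔ ∀ p, x p = enc (fun i => x (info i)) p :=
  ⟨fun h p => congrFun (eq_enc h) p, fun h => (funext h : x = _) ▸ enc_mem _⟩

theorem enc_injective : Function.Injective enc := fun a b h =>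
  funext fun i => by rw [← enc_info a, h, enc_info]

/-- Ternary digits. -/
def dg (n : ℕ) (i : Fin 6) : ZMod 3 := (n / 3 ^ (i : ℕ) % 3 : ℕ)

theorem dg_bijective : Function.Bijective fun n : Fin 729 => dg n := by
  refine (Fintype.bijective_iff_surjective_and_card _).2 ⟨fun a => ?_, by simp⟩
  refine ⟨finFunctionFinEquiv (m := 3) (n := 6) a, funext fun i => ?_⟩
  have := finFunctionFinEquiv_symm_apply_val (finFunctionFinEquiv (m := 3) (n := 6) a) i
  have h2 := congrFun ((finFunctionFinEquiv (m := 3) (n := 6)).symm_apply_apply a) i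
  exact (congrArg Nat.cast (this.symm.trans (congrArg Fin.val h2))).trans
    (ZMod.natCast_zmod_val (n := 3) (a i))

/-- The entry `j` of word number `n`, before reduction. -/
def wd (n j : ℕ) : ℕ := n % 3 * bm 0 j + n / 3 % 3 * bm 1 j + n / 9 % 3 * bm 2 j +
  n / 27 % 3 * bm 3 j + n / 81 % 3 * bm 4 j + n / 243 % 3 * bm 5 j

theorem enc_dg (n : ℕ) (p : ArrayPt) : enc (dg n) p = (wd n (idx p) : ℕ) := by
  simp [enc, Fin.sum_univ_six, dg, wd, bas]

/-- A labelling of the positions carrying the hexads to the standard system. -/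
def lab : ArrayPt ≃ Fin 12 :=
  ⟨fun p => [0, 1, 2, 3, 4, 5, 7, 11, 8, 6, 9, 10].getD (idx p) 0, ![(0, 0), (0, 1), (0, 2), (1, 0), (1, 1), (1, 2), (3, 0), (2, 0), (2, 2), (3, 1), (3, 2), (2, 1)],
    by decide +kernel, by decide +kernel⟩

/-- The mask of the support of word number `n`. -/
def sm (n : ℕ) : ℕ :=
  Nat.ofBits fun j : Fin 12 => !(Nat.beq (wd n ([0, 1, 2, 3, 4, 5, 9, 6, 8, 10, 11, 7].getD j 0) % 3) 0)

theorem image_support (n : ℕ) : (ternarySupport (enc (dg n))).image lab = ms 12 (sm n) := by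
  ext j
  have h1 : idx (lab.symm j) = [0, 1, 2, 3, 4, 5, 9, 6, 8, 10, 11, 7].getD j 0 := by
    revert j; decide +kernel
  rw [mem_ms, sm, Nat.testBit_ofBits_lt _ _ j.2, ← lab.apply_symm_apply j,
    lab.injective.mem_finset_image, ternarySupport, mem_filter, enc_dg, lab.apply_symm_apply, h1,
    Ne, ZMod.natCast_eq_zero_iff, Nat.dvd_iff_mod_eq_zero, Bool.not_eq_true', ← Bool.not_eq_true,
    Nat.beq_eq]
  simp

theorem card_support (n : ℕ) : (ternarySupport (enc (dg n))).card = pc (sm n) 12 := by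
  rw [← card_ms, ← image_support, card_image_of_injective _ lab.injective]

theorem exists_dg {x : ArrayPt → ZMod 3} (hx : x ∈ ternaryGolayCode) :
    ∃ n < 729, x = enc (dg n) := by
  obtain ⟨n, hn⟩ := dg_bijective.2 fun i => x (info i)
  exact ⟨n, n.2, by rw [show dg n = _ from hn]; exact eq_enc hx⟩

theorem ncard_code_filter (P : (ArrayPt → ZMod 3) → Prop) (q : ℕ → Bool)
    (h : ∀ n, P (enc (dg n)) ↔ q n = true) :
    {x | x ∈ ternaryGolayCode ∧ P x}.ncard = (List.range 729).countP q := by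
  rw [List.countP_eq_length_filter, ← List.toFinset_card_of_nodup (List.nodup_range.filter _),
    ← Set.ncard_coe_finset, ← Set.InjOn.ncard_image (f := fun n => enc (dg n))]
  · congr 1
    ext c
    simp only [Set.mem_ofPred_eq, List.coe_toFinset, List.mem_filter, Set.mem_image,
      List.mem_range]
    constructor
    · rintro ⟨hc, hP⟩
      obtain ⟨n, hn, rfl⟩ := exists_dg hc
      exact ⟨n, ⟨hn, (h n).1 hP⟩, rfl⟩
    · rintro ⟨k, ⟨-, hq⟩, rfl⟩
      exact ⟨enc_mem _, (h k).2 hq⟩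
  · intro a ha b hb hab
    simp only [List.coe_toFinset, List.mem_filter, Set.mem_ofPred_eq, List.mem_range] at ha hb
    exact congrArg Fin.val (dg_bijective.1 (a₁ := ⟨a, ha.1⟩) (a₂ := ⟨b, hb.1⟩) (enc_injective hab))

theorem ncard_weight (k : ℕ) :
    {x | x ∈ ternaryGolayCode ∧ (ternarySupport x).card = k}.ncard =
      (List.range 729).countP fun n => Nat.beq (pc (sm n) 12) k :=
  ncard_code_filter _ _ fun n => by rw [card_support, Nat.beq_eq]

/-- The hexads of the code. -/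
def hexads : Set (Finset ArrayPt) :=
  {h : Finset ArrayPt | ∃ x ∈ ternaryGolayCode, ternarySupport x = h ∧ h.card = 6}

theorem tr_hexads : tr lab hexads = fam 12 L12 := by
  ext c
  constructor
  · rintro ⟨_, ⟨x, hx, rfl, h6⟩, rfl⟩
    obtain ⟨n, hn, rfl⟩ := exists_dg hx
    rw [card_support] at h6
    have := (allLt_iff _ _).1 (show allLt (fun n => !(Nat.beq (pc (sm n) 12) 6) || elem (sm n) L12)
      729 = true by decide +kernel) n hn
    rw [h6] at this
    exact ⟨sm n, (elem_iff _ _).1 (by simpa using this), (image_support n).symm⟩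
  · rintro ⟨k, hk, rfl⟩
    rw [show L12 = [134, 284, 429, 379, 97, 37, 141, 439, 318, 335, 369, 247, 156, 34, 100, 479, 259, 354, 332, 306, 49, 85, 144, 110, 12, 417, 272, 262, 303, 405, 146, 48, 86, 346, 305, 441, 462, 263, 120, 14, 109, 35, 99, 307, 330, 258, 407, 270, 142, 38, 96, 13, 108, 294, 406, 271, 333, 246, 101, 33, 36, 84, 1, 248, 378, 261, 112, 17, 117, 393, 289, 410, 415, 276, 154, 32, 102, 51, 83, 269, 459, 299, 327, 252, 95, 39, 137, 47, 87, 301, 342, 264, 432, 245, 114, 10, 5, 90, 27, 279, 325, 249, 43, 91, 138, 105, 29, 353, 255, 250, 315, 324, 89, 45, 11, 135, 3, 273, 423, 244, 126, 4, 30, 82, 9, 254, 411, 297, 15, 28, 81, 243].map sm by decide +kernel] at hk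
    obtain ⟨n, hn, rfl⟩ := List.mem_map.1 hk
    refine ⟨_, ⟨_, enc_mem (dg n), rfl, ?_⟩, image_support n⟩
    rw [card_support, ← card_ms]
    refine steiner_fam12.1 _ ⟨_, ?_, rfl⟩
    rw [show L12 = [134, 284, 429, 379, 97, 37, 141, 439, 318, 335, 369, 247, 156, 34, 100, 479, 259, 354, 332, 306, 49, 85, 144, 110, 12, 417, 272, 262, 303, 405, 146, 48, 86, 346, 305, 441, 462, 263, 120, 14, 109, 35, 99, 307, 330, 258, 407, 270, 142, 38, 96, 13, 108, 294, 406, 271, 333, 246, 101, 33, 36, 84, 1, 248, 378, 261, 112, 17, 117, 393, 289, 410, 415, 276, 154, 32, 102, 51, 83, 269, 459, 299, 327, 252, 95, 39, 137, 47, 87, 301, 342, 264, 432, 245, 114, 10, 5, 90, 27, 279, 325, 249, 43, 91, 138, 105, 29, 353, 255, 250, 315, 324, 89, 45, 11, 135, 3, 273, 423, 244, 126, 4, 30, 82, 9, 254, 411, 297, 15, 28, 81, 243].map sm by decide +kernel]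
    exact hk

theorem hexads_eq : hexads = tr lab.symm (fam 12 L12) := by rw [← tr_hexads, tr_symm_tr]

theorem steiner_hexads : IsSteinerSystem 5 6 hexads := hexads_eq ▸ steiner_tr _ steiner_fam12

/-! ### Monomial automorphisms -/

/-- The monomial map preserves the code. -/
def Pres (σ : Equiv.Perm ArrayPt) (c : ArrayPt → (ZMod 3)ˣ) : Prop :=
  ∀ x ∈ ternaryGolayCode, monomialMap σ c x ∈ ternaryGolayCode

theorem pres_of_bas {σ : Equiv.Perm ArrayPt} {c : ArrayPt → (ZMod 3)ˣ}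
    (h : ∀ i, monomialMap σ c (bas i) ∈ ternaryGolayCode) : Pres σ c := by
  intro x hx
  have : monomialMap σ c x = ∑ i, x (info i) • monomialMap σ c (bas i) := by
    funext p
    conv_lhs => rw [eq_enc hx]
    simp only [monomialMap, enc, Finset.sum_apply, Pi.smul_apply, smul_eq_mul, mul_sum]
    exact sum_congr rfl fun i _ => by ring
  rw [this]
  exact Submodule.sum_mem _ fun i _ => Submodule.smul_mem _ _ (h i)

theorem pres_one {c : ArrayPt → (ZMod 3)ˣ} (h : Pres 1 c) : (∀ p, c p = 1) ∨ ∀ p, c p = -1 := by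
  have h1 : ∀ i p, bas i p ≠ 0 → c p = c (info i) := by
    intro i p hp
    have h2 := mem_iff.1 (h _ (bas_mem i)) p
    have h3 : ∀ i j, bas i (info j) = if i = j then 1 else 0 := by decide +kernel
    have h4 : ∀ q : ArrayPt, (1 : Equiv.Perm ArrayPt).symm q = q := fun _ => rfl
    simp only [monomialMap, enc, h4, h3, mul_ite,
      mul_one, mul_zero, ite_mul, zero_mul, sum_ite_eq, mem_univ, if_true] at h2
    exact Units.ext (mul_right_cancel₀ hp h2)
  have h2 : ∀ p, c p = c (info 0) := by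
    intro p
    obtain ⟨i, q, h3, h4, h5⟩ := (show ∀ p, ∃ i q, bas i p ≠ 0 ∧ bas i q ≠ 0 ∧ bas 0 q ≠ 0 by
      decide +kernel) p
    rw [h1 i p h3, ← h1 i q h4, h1 0 q h5]
  rcases (show ∀ u : (ZMod 3)ˣ, u = 1 ∨ u = -1 by decide) (c (info 0)) with h3 | h3
  · exact Or.inl fun p => by rw [h2, h3]
  · exact Or.inr fun p => by rw [h2, h3]

theorem monomialMap_mul (σ τ : Equiv.Perm ArrayPt) (c d : ArrayPt → (ZMod 3)ˣ)
    (x : ArrayPt → ZMod 3) : monomialMap σ c (monomialMap τ d x) =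
      monomialMap (σ * τ) (fun i => c i * d (σ.symm i)) x := by
  funext p
  simp [monomialMap, mul_assoc, Equiv.Perm.mul_def]

theorem Pres.mul {σ τ : Equiv.Perm ArrayPt} {c d : ArrayPt → (ZMod 3)ˣ} (h : Pres σ c)
    (h' : Pres τ d) : Pres (σ * τ) fun i => c i * d (σ.symm i) := fun x hx => by
  rw [← monomialMap_mul]
  exact h _ (h' x hx)

theorem Pres.inv {σ : Equiv.Perm ArrayPt} {c : ArrayPt → (ZMod 3)ˣ} (h : Pres σ c) :
    Pres σ⁻¹ fun i => (c (σ i))⁻¹ := by
  have hl : ∀ x, monomialMap σ⁻¹ (fun i => (c (σ i))⁻¹) (monomialMap σ c x) = x := by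
    intro x
    funext p
    change ((c (σ p))⁻¹ : (ZMod 3)ˣ) * ((c (σ p) : ZMod 3) * x (σ.symm (σ p))) = x p
    rw [Units.inv_mul_cancel_left, Equiv.symm_apply_apply]
  have hinj : Function.Injective fun x : ternaryGolayCode =>
      (⟨monomialMap σ c x, h x x.2⟩ : ternaryGolayCode) := fun x y hxy =>
    Subtype.ext (by rw [← hl x, show monomialMap σ c x = monomialMap σ c y from
      congrArg Subtype.val hxy, hl])
  intro y hy
  obtain ⟨x, hx⟩ := Finite.surjective_of_injective hinj ⟨y, hy⟩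
  rw [← show monomialMap σ c x = y from congrArg Subtype.val hx, hl]
  exact x.2

theorem pres_neg : Pres 1 fun _ => -1 := fun x hx => by
  have : monomialMap 1 (fun _ => (-1 : (ZMod 3)ˣ)) x = -x := by
    funext p
    exact neg_one_mul (x p)
  rw [this]
  exact neg_mem hx

/-- The permutation parts of the monomial automorphisms. -/
def permPart : Subgroup (Equiv.Perm ArrayPt) where
  carrier := {σ | ∃ c, Pres σ c}
  one_mem' := ⟨_, pres_neg⟩
  mul_mem' := fun ⟨_, h⟩ ⟨_, h'⟩ => ⟨_, h.mul h'⟩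
  inv_mem' := fun ⟨_, h⟩ => ⟨_, h.inv⟩

theorem support_monomialMap (σ : Equiv.Perm ArrayPt) (c : ArrayPt → (ZMod 3)ˣ)
    (x : ArrayPt → ZMod 3) :
    ternarySupport (monomialMap σ c x) = (ternarySupport x).image σ := by
  ext p
  rw [← σ.apply_symm_apply p, σ.injective.mem_finset_image]
  simp [ternarySupport, monomialMap]

/-- The labelling matching Witt's generators. -/
def lab' : ArrayPt ≃ Fin 12 :=
  ⟨fun p => [0, 1, 2, 3, 4, 5, 10, 11, 9, 8, 6, 7].getD (idx p) 0, ![(0, 0), (0, 1), (0, 2), (1, 0), (1, 1), (1, 2), (3, 1), (3, 2), (3, 0), (2, 2), (2, 0), (2, 1)],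
    by decide +kernel, by decide +kernel⟩

theorem permPart_eq : permPart = setSystemAut hexads := by
  apply Subgroup.eq_of_le_of_card_ge
  · rintro σ ⟨c, h⟩
    refine mem_aut_of_subset ?_
    rintro _ ⟨x, hx, rfl, h6⟩
    exact ⟨_, h x hx, support_monomialMap σ c x, by
      rw [card_image_of_injective _ σ.injective, h6]⟩
  · rw [(steiner12_sharp (by simp) steiner_hexads).card_twelve (by simp)]
    refine le_card_wg12.trans ?_
    have key : ∀ (g : Equiv.Perm (Fin 12)) (m : ℕ), (∀ i p, monomialMap (lab'.symm.permCongr g)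
        (fun p => if m.testBit (idx p) then -1 else 1) (bas i) p = enc (fun j => monomialMap
        (lab'.symm.permCongr g) (fun p => if m.testBit (idx p) then -1 else 1) (bas i) (info j)) p) →
        g ∈ permPart.comap lab'.symm.permCongrHom.toMonoidHom :=
      fun g m h => ⟨_, pres_of_bas fun i => mem_iff.2 (h i)⟩
    have hle : cl [wg 0, wg 1, wg 2, wg 3, wg 4, wg 5, wg 6, wg 7] ≤
        permPart.comap lab'.symm.permCongrHom.toMonoidHom := by
      rw [Subgroup.closure_le]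
      simp only [List.mem_cons, List.not_mem_nil, or_false]
      rintro g (rfl | rfl | rfl | rfl | rfl | rfl | rfl | rfl)
      exacts [key _ 0 (by decide +kernel), key _ 0 (by decide +kernel), key _ 4092 (by decide +kernel), key _ 4090 (by decide +kernel), key _ 6 (by decide +kernel), key _ 630 (by decide +kernel), key _ 0 (by decide +kernel), key _ 0 (by decide +kernel)]
    refine (Subgroup.card_le_of_le hle).trans (le_of_eq ?_)
    exact Nat.card_congr (Equiv.subtypeEquiv lab'.symm.permCongr fun _ => Iff.rfl)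

theorem card_pres : Nat.card {f : Equiv.Perm ArrayPt × (ArrayPt → (ZMod 3)ˣ) // Pres f.1 f.2} =
    190080 := by
  have hc : ∀ σ : permPart, ∃ c, Pres σ c := fun σ => σ.2
  choose c hc using hc
  have hneg : ∀ σ : permPart, Pres σ (-c σ) := fun σ => by
    have := pres_neg.mul (hc σ)
    rw [one_mul] at this
    convert this using 1
    funext p
    exact (neg_one_mul (c σ p)).symm
  let F : permPart × Bool → {f : Equiv.Perm ArrayPt × (ArrayPt → (ZMod 3)ˣ) // Pres f.1 f.2} :=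
    fun x => ⟨(x.1, cond x.2 (c x.1) (-c x.1)), by
      obtain ⟨σ, _ | _⟩ := x
      exacts [hneg σ, hc σ]⟩
  have hne : ∀ σ, -c σ ≠ c σ := fun σ h =>
    (show ∀ u : (ZMod 3)ˣ, -u ≠ u by decide) _ (congrFun h (0, 0))
  have hF : Function.Bijective F := by
    constructor
    · rintro ⟨σ, b⟩ ⟨τ, b'⟩ h
      have h1 := Prod.ext_iff.1 (congrArg Subtype.val h)
      obtain rfl : σ = τ := Subtype.ext h1.1
      cases b <;> cases b'
      · rfl
      · exact absurd h1.2 (hne σ)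
      · exact absurd h1.2.symm (hne σ)
      · rfl
    · rintro ⟨⟨σ, d⟩, h⟩
      have h1 := h.mul (hc ⟨σ, d, h⟩).inv
      rw [mul_inv_cancel] at h1
      rcases pres_one h1 with h2 | h2
      · refine ⟨(⟨σ, d, h⟩, true), Subtype.ext (Prod.ext rfl (funext fun p => ?_))⟩
        have := h2 p
        simp only [Equiv.apply_symm_apply, mul_inv_eq_one] at this
        exact this.symm
      · refine ⟨(⟨σ, d, h⟩, false), Subtype.ext (Prod.ext rfl (funext fun p => ?_))⟩
        have := h2 p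
        simp only [Equiv.apply_symm_apply, mul_inv_eq_iff_eq_mul, neg_mul, one_mul] at this
        exact this.symm
  rw [← Nat.card_eq_of_bijective F hF, Nat.card_prod, permPart_eq,
    (steiner12_sharp (by simp) steiner_hexads).card_twelve (by simp)]
  simp

end Cfsg.Agent.Spor.Tern
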