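import Mathlib
import Cfsg.Agent.Spor.M11Local

/-!
# Quartets of a dodecad
-/

set_option autoImplicit false

namespace Cfsg.Agent.Spor.Dod

open Finset MulAction MB
open scoped Pointwise

variable {d : Finset GolayPt}

/-- The masks of the hexads of the standard dodecad. -/
def hexL : List ℕ := [343, 591, 797, 858, 4127, 4430, 4441, 4691, 4700, 4875, 4886, 4933, 8285,
  8478, 8523, 8731, 8790, 8967, 9036, 9041, 12359, 12378, 12557, 12563, 12628, 12814, 12821, 12873,
  13080, 13122, 65627, 65807, 65884, 66078, 66133, 66323, 66374, 66377, 69709, 69718, 69909, 69914,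
  69955, 70151, 70169, 70218, 70412, 70480, 73751, 73806, 74009, 74053, 74066, 74253, 74307, 74328,
  74506, 74516, 77835, 77852, 77905, 78086, 78152, 78354, 78404, 78593, 262238, 262427, 262477,
  262679, 262745, 262926, 262979, 262996, 266315, 266325, 266503, 266524, 266578, 266765, 266778,
  266822, 267025, 267080, 270351, 270419, 270613, 270662, 270680, 270876, 270917, 270922, 271113,
  271122, 274454, 274457, 274508, 274698, 274753, 274947, 275024, 275204, 327709, 327751, 327958,
  328010, 328017, 328203, 328268, 328274, 328453, 328472, 331790, 331795, 331864, 332041, 332100,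
  332308, 332353, 332546, 335898, 335945, 335956, 336131, 336140, 336390, 336401, 336704, 339973,
  340034, 340240, 340488]

theorem mask_D0 : mask D0 = 340831 := mask_unmask (by norm_num)

theorem mem_hexadsOn_D0 {h : Finset GolayPt} : h ∈ hexadsOn D0 ↔ mask h ∈ hexL := by
  constructor
  · rintro ⟨h6, o, ho, rfl⟩
    have := forall_octads (q := fun o => force (Nat.land o 340831) fun m =>
      Bool.or (Bool.not (Nat.beq (pc m) 6)) (memL hexL m)) (by decide +kernel) o ho
    rw [card_eq_pc, mask_inter, mask_D0] at h6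
    rw [force_eq, h6] at this
    rw [mask_inter, mask_D0]
    exact memL_iff.1 (by simpa using this)
  · intro hm
    have := allL_iff.1 (show allL (fun m => Bool.and (Nat.beq (pc m) 6)
      (anyL (fun o => Nat.beq (Nat.land o 340831) m) octL)) hexL = true by decide +kernel) _ hm
    rw [Bool.and_eq_true, Nat.beq_eq, anyL_iff] at this
    obtain ⟨h6, o, ho, e⟩ := this
    refine ⟨by rw [card_eq_pc, h6], unmask o, unmask_mem_octads_of_mem ho, ?_⟩
    rw [← unmask_land, Nat.eq_of_beq_eq_true e, unmask_mask]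

theorem smul_mem_quartets {g : PG} (hg : g ∈ M24) {Q : Finset (Finset GolayPt)}
    (hQ : Q ∈ quartets d) : g • Q ∈ quartets (g • d) := by
  obtain ⟨h1, h2, h3⟩ := hQ
  refine ⟨by rw [card_smul_finset, h1], ?_, ?_⟩
  · intro t' ht'
    obtain ⟨t, ht, rfl⟩ := mem_smul_finset.1 ht'
    exact ⟨by rw [card_smul_finset, (h2 t ht).1], smul_finset_subset_smul_finset (h2 t ht).2⟩
  · intro t' ht' u' hu' htu
    obtain ⟨t, ht, rfl⟩ := mem_smul_finset.1 ht'
    obtain ⟨u, hu, rfl⟩ := mem_smul_finset.1 hu'
    rw [← smul_finset_union]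
    exact smul_mem_hexadsOn hg (h3 t ht u hu fun h => htu (by rw [h]))

theorem smul_mem_quartets_iff {g : PG} (hg : g ∈ M24) {Q : Finset (Finset GolayPt)} :
    g • Q ∈ quartets (g • d) ↔ Q ∈ quartets d :=
  ⟨fun h => by simpa using smul_mem_quartets (M24.inv_mem hg) h, smul_mem_quartets hg⟩

/-- Test for a quartet of the standard dodecad. -/
noncomputable def chkQ (l : List ℕ) : Bool :=
  Bool.and (distinct (fun x => x) 4 l) (allL (fun m => Bool.and (Bool.and (Nat.blt m 16777216)
    (Bool.and (Nat.beq (pc m) 3) (Nat.beq (Nat.land m 340831) m)))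
    (allL (fun m' => Bool.or (Nat.beq m m') (memL hexL (Nat.lor m m'))) l)) l)

theorem card_fam {l : List ℕ} (hl : l.Nodup) (hlt : ∀ m ∈ l, m < 2 ^ 24) :
    (fam l).card = l.length := by
  rw [fam, List.toFinset_card_of_nodup, List.length_map]
  exact hl.map_on fun a ha b hb h => (unmask_inj (hlt a ha) (hlt b hb)).1 h

theorem fam_mem_quartets {l : List ℕ} (h : chkQ l = true) : fam l ∈ quartets D0 := by
  simp only [chkQ, Bool.and_eq_true, allL_iff, Nat.blt_eq, Nat.beq_eq, Bool.or_eq_true,
    memL_iff] at h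
  obtain ⟨h1, h2⟩ := h
  obtain ⟨h3, h4⟩ := distinct_spec h1
  have hlt : ∀ m ∈ l, m < 2 ^ 24 := fun m hm => (h2 m hm).1.1
  refine ⟨by rw [card_fam (by simpa using h3) hlt, h4], ?_, ?_⟩
  · intro t ht
    obtain ⟨m, hm, rfl⟩ := mem_fam.1 ht
    refine ⟨by rw [card_unmask, (h2 m hm).1.2.1], ?_⟩
    rw [subset_iff_mask, mask_D0, mask_unmask (hlt m hm), (h2 m hm).1.2.2]
  · intro t ht u hu htu
    obtain ⟨m, hm, rfl⟩ := mem_fam.1 ht
    obtain ⟨m', hm', rfl⟩ := mem_fam.1 hu
    rw [mem_hexadsOn_D0, mask_union, mask_unmask (hlt m hm), mask_unmask (hlt m' hm')]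
    exact ((h2 m hm).2 m' hm').resolve_left fun e => htu (by rw [e])

theorem smul_fam_eq_iff {l : List ℕ} (hlt : ∀ m ∈ l, m < 2 ^ 24) {g : PG} :
    g • fam l = fam l ↔ stabsFam l (code g) = true := by
  refine ⟨fun h => allL_iff.2 fun m hm => memL_iff.2 ?_, smul_fam_of_stabsFam⟩
  have : g • unmask m ∈ fam l := h ▸ smul_mem_smul_finset (mem_fam.2 ⟨m, hm, rfl⟩)
  obtain ⟨m', hm', e⟩ := mem_fam.1 this
  rwa [(smul_unmask_eq_iff (hlt m' hm')).1 e.symm]

/-- The standard quartet. -/
def Q0 : Finset (Finset GolayPt) := fam [7, 4120, 8960, 327744]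

theorem Q0_mem : Q0 ∈ quartets D0 := fam_mem_quartets (by decide +kernel)

theorem eq_Q0 {Q : Finset (Finset GolayPt)} (hQ : Q ∈ quartets D0) (ht : unmask 7 ∈ Q)
    (hu : unmask 4120 ∈ Q) : Q = Q0 := by
  refine eq_of_subset_of_card_le (fun v hv => ?_) (by rw [hQ.1, Q0_mem.1])
  by_cases h1 : v = unmask 7
  · exact mem_fam.2 ⟨7, by simp, h1.symm⟩
  by_cases h2 : v = unmask 4120
  · exact mem_fam.2 ⟨4120, by simp, h2.symm⟩
  have h3 := hQ.2.2 _ ht _ hv (Ne.symm h1)
  have h4 := hQ.2.2 _ hv _ hu h2
  have h5 : Disjoint (unmask 7) v := by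
    rw [← card_union_eq_card_add_card, h3.1, (hQ.2.1 _ ht).1, (hQ.2.1 _ hv).1]
  have h6 : symmDiff (unmask 7 ∪ v) (unmask 7) = v := by
    ext x
    have : x ∈ unmask 7 → x ∉ v := fun h => disjoint_left.1 h5 h
    simp only [mem_symmDiff, mem_union]
    tauto
  have h7 := allL_iff.1 (show allL (fun h => Bool.or (Bool.not (Nat.beq (Nat.land 7 h) 7))
    (force (Nat.xor h 7) fun v => Bool.or (Bool.not (memL hexL (Nat.lor v 4120)))
      (memL [7, 4120, 8960, 327744] v))) hexL = true by decide +kernel) _ (mem_hexadsOn_D0.1 h3)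
  have e7 : mask (unmask 7) = 7 := mask_unmask (by norm_num)
  have e8 : Nat.land 7 (mask (unmask 7 ∪ v)) = 7 := by
    have := subset_iff_mask.1 (subset_union_left : unmask 7 ⊆ unmask 7 ∪ v)
    rwa [e7] at this
  have e9 : Nat.xor (mask (unmask 7 ∪ v)) 7 = mask v := by
    conv_rhs => rw [← h6, mask_symmDiff, e7]
  have e10 : memL hexL (Nat.lor (mask v) 4120) = true := by
    rw [memL_iff, ← mask_unmask (m := 4120) (by norm_num), ← mask_union]
    exact mem_hexadsOn_D0.1 h4
  rw [e8, force_eq, e9, e10] at h7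
  exact mem_fam.2 ⟨mask v, memL_iff.1 (by simpa using h7), unmask_mask v⟩

/-- Pairs of disjoint triples uniting to a hexad form one orbit. -/
theorem exists_smul_triples (hd : d ∈ dodecads) {t u : Finset GolayPt} (ht : t.card = 3)
    (hu : u.card = 3) (hh : t ∪ u ∈ hexadsOn d) :
    ∃ g ∈ M24, g • D0 = d ∧ g • unmask 7 = t ∧ g • unmask 4120 = u := by
  have htu : Disjoint t u := by rw [← card_union_eq_card_add_card, hh.1, ht, hu]
  obtain ⟨a, b, c, hab, hac, hbc, rfl⟩ := card_eq_three.1 ht
  obtain ⟨x, y, z, hxy, hxz, hyz, rfl⟩ := card_eq_three.1 hu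
  have hsub := hexad_subset hh
  have htu' := htu
  simp only [disjoint_insert_left, disjoint_singleton_left, mem_insert, mem_singleton,
    not_or] at htu
  obtain ⟨g, hg, e1, e2⟩ := exists_map_list Dod.D0_mem hd ([0, 1, 2, 3, 4].map pt)
    [a, b, c, x, y] (by decide +kernel) (by simp [hab, hac, hbc, hxy, htu]) rfl le_rfl
    (by decide +kernel) (fun w hw => hsub (by
      simp only [List.mem_cons, List.not_mem_nil, or_false] at hw
      simp only [mem_union, mem_insert, mem_singleton]
      tauto))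
  simp only [List.map_cons, List.map_nil, List.cons.injEq, and_true] at e2
  obtain ⟨f0, f1, f2, f3, f4⟩ := e2
  have h1 : g • unmask 7 = {a, b, c} := by
    rw [show unmask 7 = {pt 0, pt 1, pt 2} by decide +kernel, ← f0, ← f1, ← f2,
      smul_finset_insert, smul_finset_insert, smul_finset_singleton]
    rfl
  have h2 : g • unmask 4127 = {a, b, c} ∪ {x, y, z} := by
    have h3 := smul_mem_hexadsOn hg (show unmask 4127 ∈ hexadsOn D0 from
      mem_hexadsOn_D0.2 (by rw [mask_unmask (by norm_num)]; decide +kernel))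
    rw [e1] at h3
    apply hexad_unique h3 hh
    have h4 : g • unmask 31 ⊆ g • unmask 4127 ∩ ({a, b, c} ∪ {x, y, z}) := by
      refine subset_inter (smul_finset_subset_smul_finset (by decide +kernel)) ?_
      rw [show unmask 31 = {pt 0, pt 1, pt 2, pt 3, pt 4} by decide +kernel]
      intro w hw
      obtain ⟨v, hv, rfl⟩ := mem_smul_finset.1 hw
      simp only [mem_insert, mem_singleton] at hv
      rcases hv with rfl | rfl | rfl | rfl | rfl <;> simp [f0, f1, f2, f3, f4]
    have h5 := card_le_card h4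
    rwa [card_smul_finset, card_unmask, show pc 31 = 5 by decide +kernel] at h5
  refine ⟨g, hg, e1, h1, ?_⟩
  rw [show unmask 4120 = unmask 4127 \ unmask 7 by decide +kernel, smul_finset_sdiff, h1, h2,
    union_sdiff_cancel_left htu']

theorem existsUnique_quartet (hd : d ∈ dodecads) {t u : Finset GolayPt} (ht : t.card = 3)
    (hu : u.card = 3) (hh : t ∪ u ∈ hexadsOn d) : ∃! Q, Q ∈ quartets d ∧ t ∈ Q ∧ u ∈ Q := by
  obtain ⟨g, hg, rfl, rfl, rfl⟩ := exists_smul_triples hd ht hu hh
  refine ⟨g • Q0, ⟨smul_mem_quartets hg Q0_mem, smul_mem_smul_finset (mem_fam.2 ⟨7, by simp, rfl⟩),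
    smul_mem_smul_finset (mem_fam.2 ⟨4120, by simp, rfl⟩)⟩, ?_⟩
  rintro Q ⟨h1, h2, h3⟩
  rw [← eq_Q0 (Q := g⁻¹ • Q) (by rwa [← smul_mem_quartets_iff hg, smul_inv_smul])
    (by rwa [mem_inv_smul_finset_iff]) (by rwa [mem_inv_smul_finset_iff]), smul_inv_smul]

theorem exists_smul_Q0 (hd : d ∈ dodecads) {Q : Finset (Finset GolayPt)} (hQ : Q ∈ quartets d) :
    ∃ g ∈ M24, g • D0 = d ∧ g • Q0 = Q := by
  obtain ⟨t, ht, u, hu, htu⟩ := one_lt_card.1 (show 1 < Q.card by rw [hQ.1]; norm_num)
  obtain ⟨g, hg, rfl, rfl, rfl⟩ := exists_smul_triples hd (hQ.2.1 t ht).1 (hQ.2.1 u hu).1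
    (hQ.2.2 t ht u hu htu)
  refine ⟨g, hg, rfl, ?_⟩
  rw [← eq_Q0 (Q := g⁻¹ • Q) (by rwa [← smul_mem_quartets_iff hg, smul_inv_smul])
    (by rwa [mem_inv_smul_finset_iff]) (by rwa [mem_inv_smul_finset_iff]), smul_inv_smul]

/-- The stabiliser of the standard quartet in `M12`. -/
def K0 : Subgroup PG := Fx D0 [] ⊓ stabilizer PG Q0

theorem mem_K0 {g : PG} : g ∈ K0 ↔ g ∈ M24 ∧ g • D0 = D0 ∧ g • Q0 = Q0 := by
  simp [K0, mem_Fx, and_assoc]

/-- Generators of `K0`. -/
def gK0 : List ℕ := [897422442917953522560406620951550544, 642209082189178868301543870725933574]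

theorem gens_K0 : Gens K0 gK0 :=
  gens_of_check (fun c => Bool.and (Nat.beq (act c 340831) 340831)
    (stabsFam [7, 4120, 8960, 327744] c)) (fun g hg h => by
      rw [Bool.and_eq_true, Nat.beq_eq] at h
      exact mem_K0.2 ⟨hg, (smul_unmask_eq_iff (by norm_num)).2 h.1, smul_fam_of_stabsFam h.2⟩)
    (by decide +kernel)

theorem trans_K0 : ∀ q ∈ D0, ∃ g ∈ K0, g (pt 0) = q :=
  pt_trans gens_K0 (by norm_num) 12 340831 (by decide +kernel)

theorem card_K0 : Nat.card K0 = 432 := by
  have h1 : orbit K0 (pt 0) = (D0 : Set GolayPt) := by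
    ext q
    constructor
    · rintro ⟨g, rfl⟩
      exact (apply_mem_iff (mem_K0.1 g.2).2.1 _).2 (pt_mem_D0 (by decide))
    · intro hq
      obtain ⟨g, hg, rfl⟩ := trans_K0 q hq
      exact ⟨⟨g, hg⟩, rfl⟩
  rw [card_eq_ncard_orbit_mul K0 (pt 0), h1, Set.ncard_coe_finset, Dod.D0_mem.2,
    enumC_M11.card_sub (stabsFam [7, 4120, 8960, 327744])]
  · decide +kernel
  · intro g
    rw [← smul_fam_eq_iff (by decide), Subgroup.mem_inf, mem_K0, mem_Fx, mem_stabilizer_iff]
    simp only [List.map_cons, List.map_nil, List.mem_singleton, forall_eq]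
    tauto

theorem ncard_quartets (hd : d ∈ dodecads) : (quartets d).ncard = 220 := by
  obtain ⟨g, hg, rfl⟩ := Golay.exists_smul_dodecad_eq Dod.D0_mem hd
  have h1 : orbit (Fx D0 []) Q0 = quartets D0 := by
    ext Q
    constructor
    · rintro ⟨k, rfl⟩
      have := smul_mem_quartets k.2.1 Q0_mem
      rwa [k.2.2.1] at this
    · intro hQ
      obtain ⟨k, hk, h1, h2⟩ := exists_smul_Q0 Dod.D0_mem hQ
      exact ⟨⟨k, hk, h1, by simp⟩, h2⟩
  have h2 := card_eq_ncard_orbit_mul (Fx D0 []) Q0
  rw [h1, card_Fx_nil Dod.D0_mem, ← K0, card_K0] at h2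
  have h3 : quartets (g • D0) = (g • ·) '' quartets D0 := by
    ext Q
    constructor
    · intro hQ
      exact ⟨g⁻¹ • Q, by rwa [← smul_mem_quartets_iff hg, smul_inv_smul], smul_inv_smul g Q⟩
    · rintro ⟨Q, hQ, rfl⟩
      exact smul_mem_quartets hg hQ
  rw [h3, Set.ncard_image_of_injective _ (MulAction.injective g)]
  omega

/-- The list of the elements of `K0`. -/
noncomputable def K0L : List ℕ := walk mul gK0 idc 723 253593475115679129671139642713609769983915396448444195403013985466187081141937714769219520231041206700404726889041830525818914851170589962351674386713675491714491657914179173429205400620561639763932891771870390692181040760999852696882445287610102709611233012713808723876335235059401493942728170603765436164621773821662095157404318739658401159507215819491878730104110274851809251978569174440839157035723322607963370787237019977264128279709990257538867708772295051179127001565990608500496679255850629260915028595658445284857288214863091436608332562774984800071281349417970450839499412960351484481519683731495338446714179838560080110364217253328156376570218801045603903208885371692311700954418416464261896121244247033652706171274015797508261797523173506665122094162441184428114913590502545526398500446345749354589071701791358143349039124098500915976956409750048213143982609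

theorem distinct_K0L : distinct (fun x => x) 432 K0L = true := by decide +kernel

theorem enum_K0 : Enum K0 K0L := enum_of_walk gens_K0 432 _ _ distinct_K0L card_K0.le

theorem K0_le_clo : K0 ≤ clo gK0 := le_clo_of_walk gens_K0 432 _ _ distinct_K0L card_K0.le

/-- The elements of the normal subgroup of order nine of `K0`. -/
def labN (y : Fin 2 → ZMod 3) : ℕ :=
  [984818244535754528103549039458486304, 630488151153570250854033705891136514,
    858249338590762411966147903161237569, 608132182080247986231149538876424257,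
    487607080158395075740321133224921120, 809648025571350634416323764134740994,
    232830186133421440756815622813352962, 891256915141300104684601826038906945,
    928718206277989008510816407558424608].getD (3 * (y 0).val + (y 1).val) 0

theorem exists_hom_K0 : ∃ φ : K0 →* GL (Fin 2) (ZMod 3), Function.Surjective φ ∧
    Nat.card φ.ker = 9 := by
  obtain ⟨φ, hφ⟩ := exists_hom_of_conj_label (H := GL (Fin 2) (ZMod 3)) (Y := Fin 2 → ZMod 3)
    K0_le_clo labN (by decide +kernel)
    (by
      simp only [gK0, List.forall_mem_cons, List.not_mem_nil, IsEmpty.forall_iff, implies_true,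
        and_true]
      exact ⟨⟨⟨!![1, 0; 1, 1], !![1, 0; 2, 1], by decide +kernel, by decide +kernel⟩,
        by decide +kernel⟩, ⟨⟨!![1, 1; 1, 0], !![0, 1; 1, 2], by decide +kernel, by decide +kernel⟩,
        by decide +kernel⟩⟩)
    (fun h hh => gl_eq_one fun y => (show Function.Injective labN by decide +kernel) (hh y))
  have hp : ∀ y, code (toPerm (labN y)) = labN y := fun y =>
    code_toPerm ((show ∀ y, isPerm (labN y) = true by decide +kernel) y)
  have h1 : Nat.card φ.ker ≤ 9 := by
    have h2 := enum_K0.ncard_filter (fun g => comm (labN ![0, 1]) (code g) = true ∧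
      comm (labN ![1, 0]) (code g) = true)
      (fun c => Bool.and (comm (labN ![0, 1]) c) (comm (labN ![1, 0]) c))
      (fun g _ => by rw [Bool.and_eq_true])
    have h3 : K0L.countP (fun c => Bool.and (comm (labN ![0, 1]) c) (comm (labN ![1, 0]) c)) = 9 := by
      rw [← zero_add (List.countP _ _), ← cntL_eq]
      decide +kernel
    rw [← h3, ← h2, ← Nat.card_coe_set_eq]
    refine Nat.card_le_card_of_injective (fun g : φ.ker => ⟨(g : K0), (g : K0).2, ?_, ?_⟩) ?_
    · rw [← hp, comm_iff, ← mul_inv_eq_iff_eq_mul, hφ, show φ g = 1 from g.2, one_smul]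
    · rw [← hp, comm_iff, ← mul_inv_eq_iff_eq_mul, hφ, show φ g = 1 from g.2, one_smul]
    · intro g g' h
      exact Subtype.ext (Subtype.ext (Subtype.mk.inj h))
  have h2 := φ.ker.card_mul_index
  rw [card_K0, Subgroup.index_ker] at h2
  have h3 : Nat.card φ.range ≤ 48 := card_GL23 ▸ Subgroup.card_le_card_group _
  have h4 : Nat.card φ.range = 48 := by nlinarith
  refine ⟨φ, MonoidHom.range_eq_top.1 (Subgroup.eq_top_of_le_card _ (by rw [card_GL23, h4])), ?_⟩
  rw [h4] at h2
  omega

theorem ncard_orbit_K0 {l : List ℕ} (hlt : ∀ m ∈ l, m < 2 ^ 24) (n : ℕ)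
    (h : n * cntL (stabsFam l) K0L 0 = 432) : (orbit K0 (fam l)).ncard = n := by
  have h1 := card_eq_ncard_orbit_mul K0 (fam l)
  rw [card_K0, enum_K0.card_sub (K := K0 ⊓ stabilizer PG (fam l)) (stabsFam l)
    (fun g => by rw [← smul_fam_eq_iff hlt]; rfl)] at h1
  rw [cntL_eq, zero_add] at h
  have h2 : 0 < K0L.countP (stabsFam l) := by
    rcases Nat.eq_zero_or_pos (K0L.countP (stabsFam l)) with h0 | h0
    · rw [h0] at h
      omega
    · exact h0
  exact Nat.eq_of_mul_eq_mul_right h2 (h1.symm.trans h.symm)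

/-- The quartet stabiliser is conjugate to `K0`. -/
def quartetEquiv {g : PG} (hg : g ∈ M24) :
    ↥(stabilizer M24 (g • D0) ⊓ stabilizer M24 (g • Q0)) ≃* K0 :=
  conjEquiv _ K0 hg (fun _ h => h.1.1) fun x => by
    rw [mem_K0, conj_smul_eq_iff, conj_smul_eq_iff, and_iff_right (conj_mem_M24 hg x)]
    rfl

theorem orbit_quartetStab {g : PG} (hg : g ∈ M24) (X : Finset (Finset GolayPt)) :
    orbit ↥(stabilizer M24 (g • D0) ⊓ stabilizer M24 (g • Q0)) (g • X) =
      (g • ·) '' orbit K0 X := by
  ext Y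
  constructor
  · rintro ⟨k, rfl⟩
    refine ⟨_, ⟨quartetEquiv hg k, rfl⟩, ?_⟩
    change g • (g⁻¹ * (k : M24) * g) • X = ((k : M24) : PG) • g • X
    rw [mul_smul, mul_smul, smul_inv_smul]
  · rintro ⟨_, ⟨k, rfl⟩, rfl⟩
    refine ⟨(quartetEquiv hg).symm k, ?_⟩
    change (g * k * g⁻¹) • g • X = g • (k : PG) • X
    rw [mul_smul, mul_smul, inv_smul_smul]

end Cfsg.Agent.Spor.Dod
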