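import Mathlib
import Cfsg.Agent.Spor.M12Mixed
import Cfsg.Agent.Cl.LinearIso

/-!
# The stabiliser of a dodecad, a point inside and a point outside is `PSL₂(11)`
-/

set_option autoImplicit false

namespace Cfsg.Agent.Spor.Dod

open Finset MulAction MB Matrix Matrix.SpecialLinearGroup Cfsg.Agent.Cl
open scoped Pointwise

local instance instFactPrimeElevenDod : Fact (Nat.Prime 11) := ⟨by norm_num⟩

/-- Eleven sets of twelve matrices permuted by `SL₂(11)`, attached to points of the dodecad. -/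
def icosa11 (i : ℕ) : Multiset (Matrix (Fin 2) (Fin 2) (ZMod 11)) := List.getD [
  0,
  {!![1, 1; 1, 2], !![1, 3; 4, 2], !![1, 4; 3, 2], !![1, 5; 9, 2], !![1, 9; 5, 2], !![2, 2; 6, 1], !![2, 6; 2, 1], !![2, 7; 8, 1], !![2, 8; 7, 1], !![2, 10; 10, 1], !![5, 0; 0, 9], !![9, 0; 0, 5]},
  {!![1, 10; 10, 2], !![2, 1; 1, 1], !![4, 2; 3, 10], !![4, 3; 2, 10], !![5, 0; 4, 9], !![5, 4; 0, 9], !![6, 5; 5, 8], !![8, 6; 6, 6], !![9, 0; 7, 5], !![9, 7; 0, 5], !![10, 8; 9, 4], !![10, 9; 8, 4]},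
  {!![0, 4; 8, 3], !![0, 8; 4, 3], !![3, 3; 7, 0], !![3, 7; 3, 0], !![5, 0; 10, 9], !![5, 10; 0, 9], !![6, 6; 6, 8], !![7, 2; 2, 7], !![7, 9; 9, 7], !![8, 5; 5, 6], !![9, 0; 1, 5], !![9, 1; 0, 5]},
  {!![0, 1; 10, 3], !![0, 2; 5, 3], !![3, 9; 6, 0], !![3, 10; 1, 0], !![5, 0; 7, 9], !![5, 8; 0, 9], !![6, 7; 2, 8], !![7, 5; 3, 7], !![7, 6; 8, 7], !![8, 4; 9, 6], !![9, 0; 4, 5], !![9, 3; 0, 5]},
  0,
  {!![1, 2; 6, 2], !![2, 9; 5, 1], !![4, 5; 10, 10], !![4, 7; 4, 10], !![5, 0; 9, 9], !![5, 3; 0, 9], !![6, 1; 3, 8], !![8, 10; 8, 6], !![9, 0; 2, 5], !![9, 8; 0, 5], !![10, 4; 7, 4], !![10, 6; 1, 4]},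
  0,
  {!![1, 8; 7, 2], !![2, 3; 4, 1], !![4, 6; 1, 10], !![4, 9; 8, 10], !![5, 0; 5, 9], !![5, 1; 0, 9], !![6, 4; 9, 8], !![8, 7; 2, 6], !![9, 0; 6, 5], !![9, 10; 0, 5], !![10, 2; 3, 4], !![10, 5; 10, 4]},
  {!![1, 6; 2, 2], !![2, 5; 9, 1], !![4, 4; 7, 10], !![4, 10; 5, 10], !![5, 0; 3, 9], !![5, 9; 0, 9], !![6, 3; 1, 8], !![8, 8; 10, 6], !![9, 0; 8, 5], !![9, 2; 0, 5], !![10, 1; 6, 4], !![10, 7; 4, 4]},
  0,
  0,
  {!![0, 5; 2, 3], !![0, 10; 1, 3], !![3, 1; 10, 0], !![3, 6; 9, 0], !![5, 0; 8, 9], !![5, 7; 0, 9], !![6, 2; 7, 8], !![7, 3; 5, 7], !![7, 8; 6, 7], !![8, 9; 4, 6], !![9, 0; 3, 5], !![9, 4; 0, 5]},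
  {!![0, 7; 3, 3], !![0, 9; 6, 3], !![3, 2; 5, 0], !![3, 4; 8, 0], !![5, 0; 2, 9], !![5, 6; 0, 9], !![6, 8; 10, 8], !![7, 1; 4, 7], !![7, 10; 7, 7], !![8, 3; 1, 6], !![9, 0; 9, 5], !![9, 5; 0, 5]},
  0,
  0,
  {!![1, 7; 8, 2], !![2, 4; 3, 1], !![4, 1; 6, 10], !![4, 8; 9, 10], !![5, 0; 1, 9], !![5, 5; 0, 9], !![6, 9; 4, 8], !![8, 2; 7, 6], !![9, 0; 10, 5], !![9, 6; 0, 5], !![10, 3; 2, 4], !![10, 10; 5, 4]},
  0,
  {!![0, 3; 7, 3], !![0, 6; 9, 3], !![3, 5; 2, 0], !![3, 8; 4, 0], !![5, 0; 6, 9], !![5, 2; 0, 9], !![6, 10; 8, 8], !![7, 4; 1, 7], !![7, 7; 10, 7], !![8, 1; 3, 6], !![9, 0; 5, 5], !![9, 9; 0, 5]},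
  0,
  0,
  0,
  0,
  0] i 0

theorem psl2_eleven_equiv_D0 :
    Nonempty (ProjectiveSpecialLinearGroup (Fin 2) (ZMod 11) ≃* Fx D0 ([23, 0].map pt)) := by
  have := psl_fin_isSimpleGroup (F := ZMod 11) (n := 2) le_rfl (by simp)
  have hg : Gens (Fx D0 ([23, 0].map pt)) [983435072843990828779021698901151808, 977748392642347172323486709889696896] :=
    gens_Fx (by decide +kernel)
  have key : ∀ (c : ℕ) (f : Multiset (Matrix (Fin 2) (Fin 2) (ZMod 11)) → _),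
      c ∈ [983435072843990828779021698901151808, 977748392642347172323486709889696896] →
      (∀ i < 24, f (icosa11 i) = icosa11 (ap c i)) →
      ∃ h : Fx D0 ([23, 0].map pt), ∀ y, f (icosa11 (ix y)) = icosa11 (ix (h • y)) := by
    intro c f hc h
    obtain ⟨g, hg, rfl⟩ := hg c hc
    exact ⟨⟨g, hg⟩, fun y => by rw [h _ (ix_lt y), ap_code_ix]; rfl⟩
  obtain ⟨φ, -⟩ := exists_mulEquiv_of_intertwine (H := Fx D0 ([23, 0].map pt))
    (Subgroup.center (SpecialLinearGroup (Fin 2) (ZMod 11))) isoConjAct isoConjAct_one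
    isoConjAct_mul (fun y : GolayPt => icosa11 (ix y)) (fun z hz y => isoConjAct_center z hz _)
    (fun g => by
      have : intertwinable (Fx D0 ([23, 0].map pt)) isoConjAct isoConjAct_one isoConjAct_mul
          (fun y : GolayPt => icosa11 (ix y)) = ⊤ := by
        refine sl_eq_top_of_prime (by simp; norm_num) _ fun i j hij => mem_intertwinable.2 ?_
        fin_cases i <;> fin_cases j
        · exact absurd rfl hij
        · refine key 983435072843990828779021698901151808 _ (by simp) ?_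
          simp only [isoConjAct_transvection]
          decide +kernel
        · refine key 977748392642347172323486709889696896 _ (by simp) ?_
          simp only [isoConjAct_transvection]
          decide +kernel
        · exact absurd rfl hij
      exact mem_intertwinable.1 (this ▸ Subgroup.mem_top g))
    ⟨transvection zero_ne_one 1, pt 1, by rw [isoConjAct_transvection]; decide +kernel⟩ (by
      have h := card_psl_two_mul (F := ZMod 11)
      change _ ≤ Nat.card (ProjectiveSpecialLinearGroup (Fin 2) (ZMod 11))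
      generalize Nat.card (ProjectiveSpecialLinearGroup (Fin 2) (ZMod 11)) = N at h ⊢
      rw [show Nat.card (Fx D0 ([23, 0].map pt)) = 660 from
        card_Fx_in_out Dod.D0_mem (pt_mem_D0 (by decide)) (pt_notMem_D0 (by decide))]
      simp only [Nat.card_zmod] at h
      norm_num at h
      omega)
  exact ⟨φ⟩

theorem nonempty_equiv_psl2_eleven {d : Finset GolayPt} (hd : d ∈ dodecads) {p q : GolayPt}
    (hp : p ∈ d) (hq : q ∉ d) :
    Nonempty (↥(stabilizer M24 d ⊓ stabilizer M24 p ⊓ stabilizer M24 q) ≃*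
      ProjectiveSpecialLinearGroup (Fin 2) (ZMod 11)) := by
  obtain ⟨g, hg, rfl, rfl, rfl⟩ := exists_map_one_one Dod.D0_mem hd (a := pt 0) (x := pt 23)
    (pt_mem_D0 (by decide)) hp (pt_notMem_D0 (by decide)) hq
  refine ⟨(conjEquiv _ _ hg (Fx_le _ _) fun x => ?_).trans psl2_eleven_equiv_D0.some.symm⟩
  rw [conj_mem_Fx hg]
  simp only [Subgroup.mem_inf, mem_stabilizer_M24, List.map_cons, List.map_nil,
    List.forall_mem_cons, List.not_mem_nil, IsEmpty.forall_iff, implies_true, and_true,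
    Equiv.Perm.smul_def]
  tauto

end Cfsg.Agent.Spor.Dod
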