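import Mathlib
import Cfsg.Prelude.Def_SporadicCombinatorics

/-!
# The hexacode over an abstract field of order four
-/

namespace Cfsg.Agent.Spor.Hexa

open Cfsg

/-- Coordinates for the field of order four. -/
abbrev K : Type := ZMod 2 × ZMod 2

/-- Multiplication in coordinates. -/
def km (x y : K) : K := (x.1 * y.1 + x.2 * y.2, x.1 * y.2 + x.2 * y.1 + x.2 * y.2)

/-- The code word with given first three entries, in coordinates. -/
def wK (a b c : K) : Fin 6 → K :=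
  ![a, b, c, a + b + c, km (1, 1) a + km (0, 1) b + c, km (0, 1) a + km (1, 1) b + c]

variable {F : Type*} [Field F] {ω : F}

/-- The element with given coordinates. -/
def f (ω : F) (x : K) : F := (x.1.val : F) + (x.2.val : F) * ω

theorem two_eq_zero [Fintype F] (hF : Fintype.card F = 4) : (2 : F) = 0 := by
  have := FiniteField.cast_card_eq_zero F
  rw [hF] at this
  exact mul_self_eq_zero.1 (by rw [← this]; norm_num)

theorem val_add (h2 : (2 : F) = 0) (a b : ZMod 2) : ((a + b).val : F) = a.val + b.val := by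
  fin_cases a <;> fin_cases b
  · change ((0 : ℕ) : F) = (0 : ℕ) + (0 : ℕ); simp
  · change ((1 : ℕ) : F) = (0 : ℕ) + (1 : ℕ); simp
  · change ((1 : ℕ) : F) = (1 : ℕ) + (0 : ℕ); simp
  · change ((0 : ℕ) : F) = (1 : ℕ) + (1 : ℕ); push_cast; linear_combination -h2

theorem val_mul (a b : ZMod 2) : ((a * b).val : F) = a.val * b.val := by
  fin_cases a <;> fin_cases b
  · change ((0 : ℕ) : F) = (0 : ℕ) * (0 : ℕ); simp
  · change ((0 : ℕ) : F) = (0 : ℕ) * (1 : ℕ); simp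
  · change ((0 : ℕ) : F) = (1 : ℕ) * (0 : ℕ); simp
  · change ((1 : ℕ) : F) = (1 : ℕ) * (1 : ℕ); simp

theorem f_add (h2 : (2 : F) = 0) (x y : K) : f ω (x + y) = f ω x + f ω y := by
  simp only [f, Prod.fst_add, Prod.snd_add, val_add h2]; ring

theorem f_km (h2 : (2 : F) = 0) (hω : ω ^ 2 + ω + 1 = 0) (x y : K) :
    f ω (km x y) = f ω x * f ω y := by
  simp only [f, km, val_add h2, val_mul]
  linear_combination (-(x.2.val : F) * y.2.val) * hω + (x.2.val * y.2.val * (ω + 1)) * h2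

theorem f_zero : f ω 0 = 0 := by simp [f]

theorem f_one : f ω (1, 0) = 1 := by
  change ((1 : ℕ) : F) + ((0 : ℕ) : F) * ω = 1; simp

theorem f_om : f ω (0, 1) = ω := by
  change ((0 : ℕ) : F) + ((1 : ℕ) : F) * ω = ω; simp

theorem f_om2 (h2 : (2 : F) = 0) (hω : ω ^ 2 + ω + 1 = 0) : f ω (1, 1) = ω ^ 2 := by
  change ((1 : ℕ) : F) + ((1 : ℕ) : F) * ω = ω ^ 2
  push_cast
  linear_combination -hω + (ω + 1 - ω ^ 2 + ω ^ 2) * h2

theorem om_ne_zero (hω : ω ^ 2 + ω + 1 = 0) : ω ≠ 0 := by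
  rintro rfl; simp at hω

theorem f_eq_zero_iff (h2 : (2 : F) = 0) (hω : ω ^ 2 + ω + 1 = 0) (x : K) : f ω x = 0 ↔ x = 0 := by
  refine ⟨fun h => ?_, by rintro rfl; exact f_zero⟩
  have : x = 0 ∨ x = (1, 0) ∨ x = (0, 1) ∨ x = (1, 1) := by clear h; revert x; decide
  rcases this with rfl | rfl | rfl | rfl
  · rfl
  · rw [f_one] at h; exact absurd h one_ne_zero
  · rw [f_om] at h; exact absurd h (om_ne_zero hω)
  · rw [f_om2 h2 hω] at h; exact absurd h (pow_ne_zero _ (om_ne_zero hω))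

theorem f_injective (h2 : (2 : F) = 0) (hω : ω ^ 2 + ω + 1 = 0) : Function.Injective (f ω) := by
  intro x y h
  have : f ω (x + y) = 0 := by rw [f_add h2, h]; linear_combination (f ω y) * h2
  exact (by decide : ∀ x y : K, x + y = 0 → x = y) x y ((f_eq_zero_iff h2 hω _).1 this)

theorem f_surjective [Fintype F] (hF : Fintype.card F = 4) (hω : ω ^ 2 + ω + 1 = 0) :
    Function.Surjective (f ω) :=
  ((Fintype.bijective_iff_injective_and_card _).2
    ⟨f_injective (two_eq_zero hF) hω, by rw [hF]; rfl⟩).2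

theorem mem_iff (h2 : (2 : F) = 0) (hω : ω ^ 2 + ω + 1 = 0) (x : Fin 6 → F) :
    x ∈ hexacode F ω ↔ x 3 = x 0 + x 1 + x 2 ∧ x 4 = ω ^ 2 * x 0 + ω * x 1 + x 2 ∧
      x 5 = ω * x 0 + ω ^ 2 * x 1 + x 2 := by
  have : CharP F 2 := (CharP.charP_iff_prime_eq_zero Nat.prime_two).2 (by exact_mod_cast h2)
  rw [hexacode, Submodule.mem_span_triple]
  constructor
  · rintro ⟨a, b, c, rfl⟩
    simp only [Pi.add_apply, Pi.smul_apply, smul_eq_mul, Matrix.cons_val]
    refine ⟨?_, ?_, ?_⟩ <;> grind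
  · rintro ⟨h3, h4, h5⟩
    refine ⟨ω * x 0 + ω ^ 2 * x 1, ω ^ 2 * x 0 + ω ^ 2 * x 1 + x 2, x 1 + x 2, ?_⟩
    funext i
    fin_cases i <;> simp <;> grind

theorem mem_iff_exists [Fintype F] (hF : Fintype.card F = 4) (hω : ω ^ 2 + ω + 1 = 0)
    (x : Fin 6 → F) : x ∈ hexacode F ω ↔ ∃ a b c, (fun i => f ω (wK a b c i)) = x := by
  have h2 := two_eq_zero hF
  rw [mem_iff h2 hω]
  constructor
  · rintro ⟨h3, h4, h5⟩
    obtain ⟨a, ha⟩ := f_surjective hF hω (x 0)
    obtain ⟨b, hb⟩ := f_surjective hF hω (x 1)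
    obtain ⟨c, hc⟩ := f_surjective hF hω (x 2)
    refine ⟨a, b, c, funext fun i => ?_⟩
    fin_cases i <;> simp [wK, f_add h2, f_km h2 hω, f_om, f_om2 h2 hω, ha, hb, hc, h3, h4, h5]
  · rintro ⟨a, b, c, rfl⟩
    simp [wK, f_add h2, f_km h2 hω, f_om, f_om2 h2 hω]

theorem ncard_filter [Fintype F] (hF : Fintype.card F = 4) (hω : ω ^ 2 + ω + 1 = 0)
    (P : (Fin 6 → F) → Prop) (Q : K × K × K → Prop) [DecidablePred Q]
    (h : ∀ a b c, P (fun i => f ω (wK a b c i)) ↔ Q (a, b, c)) :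
    {x | x ∈ hexacode F ω ∧ P x}.ncard = (Finset.univ.filter Q).card := by
  rw [← Set.ncard_coe_finset, ← Set.ncard_image_of_injective
    (f := fun t : K × K × K => fun i => f ω (wK t.1 t.2.1 t.2.2 i))]
  · congr 1
    ext x
    simp only [Set.mem_ofPred_eq, mem_iff_exists hF hω, Set.mem_image, Finset.coe_filter,
      Finset.mem_univ, true_and]
    constructor
    · rintro ⟨⟨a, b, c, rfl⟩, hP⟩; exact ⟨(a, b, c), (h a b c).1 hP, rfl⟩
    · rintro ⟨⟨a, b, c⟩, hQ, rfl⟩; exact ⟨⟨a, b, c, rfl⟩, (h a b c).2 hQ⟩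
  · intro s t e
    have hi := f_injective (two_eq_zero hF) hω
    exact Prod.ext (hi (congrFun e 0)) (Prod.ext (hi (congrFun e 1)) (hi (congrFun e 2)))

end Cfsg.Agent.Spor.Hexa
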