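import Mathlib
import Cfsg.Prelude.Def_FischerSpaces
import Cfsg.Agent.Spor.TTPlane

/-!
Fischer spaces: line systems with three points on a line, the two model planes.
-/

set_option autoImplicit false
set_option synthInstance.maxSize 4096

namespace Cfsg.Agent.Spor.TT

open Cfsg.LineSystem

variable {X T : Type*} {L : Set (Set X)}

/-- A partial linear space with three points on each line. -/
structure Tri (L : Set (Set X)) : Prop where
  pl : IsPartialLinear L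
  three : ∀ l ∈ L, l.ncard = 3

namespace Tri

theorem exists_eq (h : Tri L) {l : Set X} (hl : l ∈ L) :
    ∃ x y z, x ≠ y ∧ x ≠ z ∧ y ≠ z ∧ l = {x, y, z} := Set.ncard_eq_three.mp (h.three l hl)

theorem exists_third (h : Tri L) {l : Set X} (hl : l ∈ L) {x y : X} (hx : x ∈ l) (hy : y ∈ l)
    (hne : x ≠ y) : ∃ z, z ≠ x ∧ z ≠ y ∧ l = {x, y, z} := by
  obtain ⟨p, q, r, h1, h2, h3, rfl⟩ := h.exists_eq hl
  rcases hx with rfl | rfl | rfl <;> rcases hy with rfl | rfl | rfl <;>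
    first
    | exact absurd rfl hne
    | exact ⟨r, by grind, by grind, by ext; grind⟩
    | exact ⟨q, by grind, by grind, by ext; grind⟩
    | exact ⟨p, by grind, by grind, by ext; grind⟩

theorem exists_two (h : Tri L) {l : Set X} (hl : l ∈ L) {x : X} (hx : x ∈ l) :
    ∃ y z, x ≠ y ∧ x ≠ z ∧ y ≠ z ∧ l = {x, y, z} := by
  obtain ⟨p, q, r, h1, h2, h3, h4⟩ := h.exists_eq hl
  obtain ⟨y, hy, hne⟩ : ∃ y ∈ l, x ≠ y := by
    by_cases h5 : x = p
    · exact ⟨q, h4 ▸ Or.inr (Or.inl rfl), h5 ▸ h1⟩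
    · exact ⟨p, h4 ▸ Or.inl rfl, h5⟩
  obtain ⟨z, h5, h6, h7⟩ := h.exists_third hl hx hy hne
  exact ⟨y, z, hne, h5.symm, h6.symm, h7⟩

theorem lineMap_eq (h : Tri L) {x y z : X} (hxy : x ≠ y) (hzx : z ≠ x) (hzy : z ≠ y)
    (hl : ({x, y, z} : Set X) ∈ L) : lineMap L x y = z := by
  have h1 : ∃ z : X, z ≠ x ∧ z ≠ y ∧ x ≠ y ∧ ({x, y, z} : Set X) ∈ L := ⟨z, hzx, hzy, hxy, hl⟩
  rw [lineMap, dif_pos h1]
  obtain ⟨h2, h3, -, h4⟩ := h1.choose_spec
  have h5 := h.pl _ h4 _ hl x y hxy (Or.inl rfl) (Or.inr (Or.inl rfl)) (Or.inl rfl)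
    (Or.inr (Or.inl rfl))
  rcases h5.le (Or.inr (Or.inr rfl)) with h6 | h6 | h6
  exacts [absurd h6 h2, absurd h6 h3, h6]

theorem lineMap_of_not {x y : X} (hn : ¬ Collinear L x y) : lineMap L x y = y := by
  rw [lineMap, dif_neg]
  rintro ⟨z, -, -, h1, h2⟩
  exact hn ⟨h1, _, h2, Or.inl rfl, Or.inr (Or.inl rfl)⟩

theorem cases (h : Tri L) (x y : X) : (¬ Collinear L x y ∧ lineMap L x y = y) ∨
    (x ≠ y ∧ lineMap L x y ≠ x ∧ lineMap L x y ≠ y ∧ ({x, y, lineMap L x y} : Set X) ∈ L) := by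
  by_cases hc : Collinear L x y
  · obtain ⟨hne, l, hl, hx, hy⟩ := hc
    obtain ⟨z, h1, h2, rfl⟩ := h.exists_third hl hx hy hne
    rw [h.lineMap_eq hne h1 h2 hl]
    exact Or.inr ⟨hne, h1, h2, hl⟩
  · exact Or.inl ⟨hc, lineMap_of_not hc⟩

theorem involutive (h : Tri L) (x : X) : Function.Involutive (lineMap L x) := fun y => by
  rcases h.cases x y with ⟨-, h1⟩ | ⟨h1, h2, h3, h4⟩
  · rw [h1, h1]
  · exact h.lineMap_eq h2.symm h1.symm h3.symm (by rwa [Set.pair_comm])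

theorem map_lineMap (h : Tri L) {g : X ≃ X} (hg : IsIso L L g) (x y : X) :
    g (lineMap L x y) = lineMap L (g x) (g y) := by
  rcases h.cases x y with ⟨h1, h2⟩ | ⟨h1, h2, h3, h4⟩
  · rw [h2, lineMap_of_not]
    rintro ⟨h3, l, hl, h4, h5⟩
    refine h1 ⟨fun h6 => h3 (h6 ▸ rfl), g.symm '' l, ?_, ⟨_, h4, g.symm_apply_apply x⟩,
      ⟨_, h5, g.symm_apply_apply y⟩⟩
    rwa [hg, g.image_symm_image]
  · refine (h.lineMap_eq (g.injective.ne h1) (g.injective.ne h2) (g.injective.ne h3) ?_).symm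
    simpa only [Set.image_insert_eq, Set.image_singleton] using (hg _).mp h4

end Tri

/-- A model plane described by a ternary relation (the lines) and a third-point function. -/
structure Model (M : Set (Set T)) (R : T → T → T → Prop) (τ : T → T → T) : Prop where
  mem : ∀ s t u, R s t u → s ≠ t ∧ u ≠ s ∧ u ≠ t ∧ ({s, t, u} : Set T) ∈ M
  ex : ∀ m ∈ M, ∃ s t u, R s t u ∧ m = {s, t, u}
  third : ∀ s t, R s t (τ s t) ∨ (τ s t = t ∧ ∀ p q r, R p q r → s ≠ t →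
    (s = p ∨ s = q ∨ s = r) → ¬ (t = p ∨ t = q ∨ t = r))
  map : ∀ s p q r, R p q r → R (τ s p) (τ s q) (τ s r)

theorem model_affine : Model affinePlaneThree (fun s t u => s ≠ t ∧ s + t + u = 0)
    (fun s t => -s - t) := by
  refine ⟨fun s t u h => ⟨h.1, ?_, ?_, s, t - s, sub_ne_zero.mpr h.1.symm, ?_⟩, ?_, by decide +kernel,
    by decide +kernel⟩
  · revert s t u; decide +kernel
  · revert s t u; decide +kernel
  · have : ∀ s t u : Fin 2 → ZMod 3, s ≠ t ∧ s + t + u = 0 → ∀ x, (x = s ∨ x = t ∨ x = u) ↔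
        ∃ c : ZMod 3, x = s + c • (t - s) := by decide +kernel
    exact Set.ext (this s t u h)
  · rintro _ ⟨v, w, hw, rfl⟩
    have : ∀ v w : Fin 2 → ZMod 3, w ≠ 0 → (v ≠ v + w ∧ v + (v + w) + (v - w) = 0) ∧
        ∀ x, (∃ c : ZMod 3, x = v + c • w) ↔ (x = v ∨ x = v + w ∨ x = v - w) := by decide +kernel
    exact ⟨v, v + w, v - w, (this v w hw).1, Set.ext (this v w hw).2⟩

/-- The third point in the dual affine plane. -/
def dualThird (s t : DualAffinePoint) : DualAffinePoint :=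
  if h : (symmDiff s.1 t.1).card = 2 then ⟨_, h⟩ else t

theorem model_dual : Model dualAffinePlaneTwo
    (fun s t u => s ≠ t ∧ u ≠ s ∧ u ≠ t ∧ ∃ i, i ∉ s.1 ∧ i ∉ t.1 ∧ i ∉ u.1) dualThird := by
  refine ⟨?_, ?_, by decide +kernel, by decide +kernel⟩
  · rintro s t u ⟨h1, h2, h3, i, h4⟩
    have : ∀ s t u : DualAffinePoint, s ≠ t → u ≠ s → u ≠ t → ∀ i, i ∉ s.1 ∧ i ∉ t.1 ∧ i ∉ u.1 →
        ∀ x : DualAffinePoint, (x = s ∨ x = t ∨ x = u) ↔ i ∉ x.1 := by decide +kernel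
    exact ⟨h1, h2, h3, i, Set.ext (this s t u h1 h2 h3 i h4)⟩
  · rintro _ ⟨i, rfl⟩
    have : ∀ i : Fin 4, ∃ s t u : DualAffinePoint, (s ≠ t ∧ u ≠ s ∧ u ≠ t ∧
        ∃ i, i ∉ s.1 ∧ i ∉ t.1 ∧ i ∉ u.1) ∧ ∀ x : DualAffinePoint,
          i ∉ x.1 ↔ (x = s ∨ x = t ∨ x = u) := by decide +kernel
    obtain ⟨s, t, u, h1, h2⟩ := this i
    exact ⟨s, t, u, h1, Set.ext h2⟩

section Model

variable {M : Set (Set T)} {R : T → T → T → Prop} {τ : T → T → T}

theorem subset_span (L : Set (Set X)) (S : Set X) : S ⊆ span L S := fun _ hx _ hT => hT.1 hx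

theorem isSubspace_span (L : Set (Set X)) (S : Set X) : IsSubspace L (span L S) :=
  fun l hl x hx y hy hne h1 h2 _ hz T hT => hT.2 l hl x (hx T hT) y (hy T hT) hne h1 h2 hz

theorem span_subset {S P : Set X} (h1 : S ⊆ P) (h2 : IsSubspace L P) : span L S ⊆ P :=
  fun _ hx => hx P ⟨h1, h2⟩

theorem mem_restrict_iff {P : Set X} {m : Set P} : m ∈ restrict L P ↔ Subtype.val '' m ∈ L := by
  constructor
  · rintro ⟨l, hl, h1, rfl⟩
    convert hl using 1
    exact Set.Subset.antisymm (by rintro _ ⟨x, hx, rfl⟩; exact hx) fun x hx => ⟨⟨x, h1 hx⟩, hx, rfl⟩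
  · exact fun h => ⟨_, h, by rintro _ ⟨x, -, rfl⟩; exact x.2, Set.ext fun x =>
      ⟨fun hx => ⟨x, hx, rfl⟩, fun ⟨y, hy, h1⟩ => Subtype.val_injective h1 ▸ hy⟩⟩

/-- In a subspace isomorphic to a model plane, `t(x)` maps lines to lines. -/
theorem Tri.image_mem (h : Tri L) (hM : Model M R τ) {P : Set X} (hP : IsSubspace L P)
    (hiso : Isomorphic (restrict L P) M) {x : X} (hx : x ∈ P) {l : Set X} (hl : l ∈ L)
    (hlP : l ⊆ P) : lineMap L x '' l ∈ L := by
  obtain ⟨e, he⟩ := hiso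
  let ψ : T → X := fun t => e.symm t
  have hinj : Function.Injective ψ := Subtype.val_injective.comp e.symm.injective
  have h1 : ∀ s t u, R s t u → ({ψ s, ψ t, ψ u} : Set X) ∈ L := by
    intro s t u hR
    have := mem_restrict_iff.mp ((he (e.symm '' {s, t, u})).mpr
      (by rw [e.image_symm_image]; exact (hM.mem s t u hR).2.2.2))
    simpa only [Set.image_insert_eq, Set.image_singleton] using this
  have h2 : ∀ k ∈ L, k ⊆ P → ∃ p q r, R p q r ∧ k = {ψ p, ψ q, ψ r} := by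
    intro k hk hkP
    obtain ⟨p, q, r, h3, h4⟩ := hM.ex _ ((he _).mp ⟨k, hk, hkP, rfl⟩)
    refine ⟨p, q, r, h3, ?_⟩
    have h5 := congrArg (fun S => Subtype.val '' (e.symm '' S)) h4
    simp only [Equiv.symm_image_image, Set.image_insert_eq, Set.image_singleton] at h5
    rw [← h5]
    exact Set.Subset.antisymm (fun x hx => ⟨⟨x, hkP hx⟩, hx, rfl⟩) (by rintro _ ⟨x, hx, rfl⟩; exact hx)
  have h3 : ∀ s t, lineMap L (ψ s) (ψ t) = ψ (τ s t) := by
    intro s t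
    rcases hM.third s t with h3 | ⟨h3, h4⟩
    · obtain ⟨k1, k2, k3, -⟩ := hM.mem _ _ _ h3
      exact h.lineMap_eq (hinj.ne k1) (hinj.ne k2) (hinj.ne k3) (h1 _ _ _ h3)
    · rw [h3, Tri.lineMap_of_not]
      rintro ⟨hne, k, hk, h5, h6⟩
      obtain ⟨p, q, r, h7, rfl⟩ := h2 k hk (hP k hk _ (e.symm s).2 _ (e.symm t).2 hne h5 h6)
      simp only [Set.mem_insert_iff, Set.mem_singleton_iff, hinj.eq_iff] at h5 h6
      exact h4 p q r h7 (fun h8 => hne (h8 ▸ rfl)) h5 h6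
  obtain ⟨p, q, r, h4, rfl⟩ := h2 l hl hlP
  have h5 : x = ψ (e ⟨x, hx⟩) := by simp [ψ]
  rw [h5]
  simp only [Set.image_insert_eq, Set.image_singleton, h3]
  exact h1 _ _ _ (hM.map _ p q r h4)

/-- A parametrisation of a subspace by a model plane. -/
theorem Tri.isomorphic_range (h : Tri L) (hM : Model M R τ) {ψ : T → X}
    (hinj : Function.Injective ψ) (h1 : ∀ s t u, R s t u → ({ψ s, ψ t, ψ u} : Set X) ∈ L)
    (h2 : ∀ s t, Collinear L (ψ s) (ψ t) → R s t (τ s t)) :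
    IsSubspace L (Set.range ψ) ∧ Isomorphic (restrict L (Set.range ψ)) M := by
  have h3 : ∀ l ∈ L, ∀ s t, ψ s ≠ ψ t → ψ s ∈ l → ψ t ∈ l → l = {ψ s, ψ t, ψ (τ s t)} :=
    fun l hl s t hne hs ht => h.pl _ hl _ (h1 _ _ _ (h2 s t ⟨hne, l, hl, hs, ht⟩)) _ _ hne hs ht
      (Or.inl rfl) (Or.inr (Or.inl rfl))
  refine ⟨?_, (Equiv.ofInjective ψ hinj).symm, fun m => ?_⟩
  · rintro l hl _ ⟨s, rfl⟩ _ ⟨t, rfl⟩ hne hs ht
    rw [h3 l hl s t hne hs ht]
    rintro _ (rfl | rfl | rfl) <;> exact ⟨_, rfl⟩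
  obtain ⟨m, rfl⟩ := (Equiv.Set.congr (Equiv.ofInjective ψ hinj)).surjective m
  rw [mem_restrict_iff, Equiv.Set.congr_apply, Equiv.symm_image_image, Set.image_image]
  change ψ '' m ∈ L ↔ _
  constructor
  · intro hl
    obtain ⟨x, y, z, k1, -, -, k2⟩ := h.exists_eq hl
    obtain ⟨s, hs, rfl⟩ := k2.ge (Or.inl rfl)
    obtain ⟨t, ht, rfl⟩ := k2.ge (Or.inr (Or.inl rfl))
    have k3 := h3 _ hl s t k1 ⟨s, hs, rfl⟩ ⟨t, ht, rfl⟩
    rw [← Set.image_singleton, ← Set.image_insert_eq, ← Set.image_insert_eq,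
      hinj.image_injective.eq_iff] at k3
    exact k3 ▸ (hM.mem _ _ _ (h2 s t ⟨k1, _, hl, ⟨s, hs, rfl⟩, ⟨t, ht, rfl⟩⟩)).2.2.2
  · intro hm
    obtain ⟨p, q, r, k1, rfl⟩ := hM.ex m hm
    simpa only [Set.image_insert_eq, Set.image_singleton] using h1 p q r k1

end Model

theorem tri_of_fischer (h : IsFischerSpace L) : Tri L := ⟨h.1, h.2.1⟩

theorem image_lineMap_mem (h : IsFischerSpace L) (x : X) {l : Set X} (hl : l ∈ L) :
    lineMap L x '' l ∈ L := by
  have ht := tri_of_fischer h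
  by_cases hx : x ∈ l
  · obtain ⟨y, z, h1, h2, h3, rfl⟩ := ht.exists_two hl hx
    simp only [Set.image_insert_eq, Set.image_singleton]
    rw [Tri.lineMap_of_not fun h4 => h4.1 rfl, ht.lineMap_eq h1 h2.symm h3.symm hl,
      ht.lineMap_eq h2 h1.symm h3 (by rwa [Set.pair_comm]), Set.pair_comm]
    exact hl
  by_cases hc : ∃ p ∈ l, Collinear L x p
  · obtain ⟨p, hp, -, m, hm, hxm, hpm⟩ := hc
    have h1 := subset_span L (l ∪ m)
    rcases h.2.2 l hl m hm (fun h2 => hx (h2 ▸ hxm)) ⟨p, hp, hpm⟩ with h2 | h2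
    · exact ht.image_mem model_dual (isSubspace_span L _) h2 (h1 (Or.inr hxm)) hl
        fun _ hy => h1 (Or.inl hy)
    · exact ht.image_mem model_affine (isSubspace_span L _) h2 (h1 (Or.inr hxm)) hl
        fun _ hy => h1 (Or.inl hy)
  · push Not at hc
    rwa [Set.image_congr fun p hp => Tri.lineMap_of_not (hc p hp), Set.image_id']

theorem isIso_lineMap (h : IsFischerSpace L) (x : X) :
    IsIso L L ((tri_of_fischer h).involutive x).toPerm := fun l =>
  ⟨image_lineMap_mem h x, fun hl => by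
    have := image_lineMap_mem h x hl
    rwa [Function.Involutive.coe_toPerm, Set.image_image,
      Set.image_congr fun p _ => (tri_of_fischer h).involutive x p, Set.image_id'] at this⟩

/-! ### The lines of a set of 3-transpositions -/

variable {G : Type*} [Group G] {D : Set G}

theorem mem_lines (h : IsTT D) {x y z : D} (hn : ¬ Commute (x : G) y) (hz : (z : G) = cj (x : G) y) :
    ({x, y, z} : Set D) ∈ threeTranspositionLines D := by
  refine ⟨x, y, hn, Set.ext fun w => ?_⟩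
  simp only [Set.mem_insert_iff, Set.mem_singleton_iff, Set.mem_ofPred_eq, Subtype.ext_iff, hz,
    h.set.cj_comm x.2 y.2 hn]
  rfl

theorem line_eq (h : IsTT D) {l : Set D} (hl : l ∈ threeTranspositionLines D) {x y : D} (hx : x ∈ l)
    (hy : y ∈ l) (hne : x ≠ y) :
    ¬ Commute (x : G) y ∧ l = {x, y, ⟨cj x y, h.cj_mem _ x.2 _ y.2⟩} := by
  obtain ⟨p, q, hn, rfl⟩ := hl
  have e1 := h.set.cj_comm p.2 q.2 hn
  have e2 := h.set.cj_cj_self p.2 q
  have e3 := h.set.cj_cj_left p.2 q.2 hn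
  have e4 := h.set.cj_cj_third p.2 q.2 hn
  have e5 := h.set.cj_cj_third' p.2 q.2 hn
  have n1 := IsThreeTranspositionSet.not_commute_cj_left hn
  have n2 := h.set.not_commute_cj_right p.2 q.2 hn
  have hne' : (x : G) ≠ y := fun h1 => hne (Subtype.ext h1)
  simp only [Set.mem_ofPred_eq, ← cj_def, ← e1, Set.ext_iff, Set.mem_insert_iff, Set.mem_singleton_iff,
    Subtype.ext_iff] at hx hy ⊢
  rcases hx with hx | hx | hx <;> rcases hy with hy | hy | hy <;> rw [hx, hy] at hne' ⊢ <;>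
    first
    | exact absurd rfl hne'
    | exact ⟨by first | assumption | exact fun h1 => hn h1.symm | exact fun h1 => n1 h1.symm |
        exact fun h1 => n2 h1.symm, fun w => by simp only [← e1, e2, e3, e4, e5] <;> tauto⟩

theorem tri_lines (h : IsTT D) : Tri (threeTranspositionLines D) := by
  refine ⟨fun l hl m hm x y hne h1 h2 h3 h4 =>
    (line_eq h hl h1 h2 hne).2.trans (line_eq h hm h3 h4 hne).2.symm, fun l hl => ?_⟩
  obtain ⟨p, q, hn, h1⟩ := id hl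
  have hne : p ≠ q := fun h2 => hn (h2 ▸ Commute.refl _)
  rw [(line_eq h hl (h1 ▸ Or.inl rfl) (h1 ▸ Or.inr (Or.inl rfl)) hne).2]
  exact Set.ncard_eq_three.mpr ⟨_, _, _, hne,
    fun h2 => IsThreeTranspositionSet.cj_ne_left hn (congrArg Subtype.val h2).symm,
    fun h2 => IsThreeTranspositionSet.cj_ne_right hn (congrArg Subtype.val h2).symm, rfl⟩

theorem collinear_lines (h : IsTT D) {x y : D} (hc : Collinear (threeTranspositionLines D) x y) :
    ¬ Commute (x : G) y := by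
  obtain ⟨hne, l, hl, hx, hy⟩ := hc
  exact (line_eq h hl hx hy hne).1

theorem cj_mem_of_isSubspace (h : IsTT D) {P : Set D} (hP : IsSubspace (threeTranspositionLines D) P)
    {x y z : D} (hx : x ∈ P) (hy : y ∈ P) (hz : (z : G) = cj (x : G) y) : z ∈ P := by
  by_cases hc : Commute (x : G) y
  · rw [cj_of_commute hc] at hz
    exact Subtype.ext hz ▸ hy
  · exact hP _ (mem_lines h hc hz) x hx y hy (fun h1 => hc (h1 ▸ Commute.refl _)) (Or.inl rfl)
      (Or.inr (Or.inl rfl)) (Or.inr (Or.inr rfl))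

end Cfsg.Agent.Spor.TT
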