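import Mathlib
import Cfsg.Agent.Spor.HeFr
import Cfsg.Agent.Spor.MTBasic

/-!
A frame of an extraspecial group of order 128 adapted to an automorphism of order 7.
-/

set_option autoImplicit false
set_option maxRecDepth 100000
set_option synthInstance.maxSize 100000
set_option synthInstance.maxHeartbeats 1000000

namespace Cfsg.Agent.Spor.HeTy

open Subgroup Cfsg.Agent.Spor.HeFr Cfsg.Agent.Spor.MT

/-- Coordinates. -/
def egEquiv : EG ≃ ZMod 2 × ZMod 2 × ZMod 2 × ZMod 2 × ZMod 2 × ZMod 2 × ZMod 2 :=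
  ⟨fun t => (t.1, t.2, t.3, t.4, t.5, t.6, t.7), fun p => ⟨p.1, p.2.1, p.2.2.1, p.2.2.2.1, p.2.2.2.2.1, p.2.2.2.2.2.1,
    p.2.2.2.2.2.2⟩, fun _ => rfl, fun _ => rfl⟩

instance : Fintype EG := Fintype.ofEquiv _ egEquiv.symm

theorem card_EG : Nat.card EG = 128 := by rw [Nat.card_congr egEquiv]; simp

/-- The action of the element of order 7. -/
def T7 : EG →* EG := MonoidHom.mk' (fun s => ⟨s.e, s.u2, s.u0 + s.u2, s.u1, s.v0 + s.v2, s.v0, s.v1⟩) fun s t => by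
  ext <;> simp only [EG.mul_def] <;> first | ring1 | linear_combination (-(t.u2 * s.v0)) * two0

variable {G : Type*} [Group G] {Q : Subgroup G} {z x : G}

theorem injective_of_ne {ν : EG →* G} (h : ν Z ≠ 1) : Function.Injective ν := (injective_iff_map_eq_one ν).2 fun t ht => by
  have h1 : ∀ t : EG, t = 1 ∨ t = Z ∨ ∃ i, t * Bs i * t⁻¹ * (Bs i)⁻¹ = Z := by decide +kernel
  rcases h1 t with e | rfl | ⟨i, e⟩
  exacts [e, absurd ht h, absurd (by rw [← e]; simp [ht]) h]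

theorem eqv_of_bf (h : ES2 Q z) {a b : G} (ha : a ∈ Q) (hb : b ∈ Q) (e : ∀ y ∈ Q, bf a y = bf b y) : Eqv z a b :=
  (h.center _ (mul_mem ha (inv_mem hb)) fun y hy => bf_eq_zero.1 (by
    rw [h.aes.bf_mul_left ha (inv_mem hb) hy, bf_inv_left, e y hy, CharTwo.add_self_eq_zero])).imp
    mul_inv_eq_one.1 mul_inv_eq_iff_eq_mul.1

/-- Conjugates under the powers of `x`. -/
def sh (x g : G) (n : ℕ) : G := x ^ n * g * (x ^ n)⁻¹

theorem sh_zero (g : G) : sh x g 0 = g := by simp [sh]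

theorem sh_sh (g : G) (m n : ℕ) : sh x (sh x g m) n = sh x g (n + m) := by simp only [sh]; group

theorem sh_mul (a b : G) (n : ℕ) : sh x (a * b) n = sh x a n * sh x b n := by simp only [sh]; group

theorem sh_succ (g : G) (n : ℕ) : x * sh x g n * x⁻¹ = sh x g (n + 1) := by simp only [sh]; group

theorem bf_sh (a b : G) (n : ℕ) : bf (sh x a n) (sh x b n) = bf a b := by
  rw [sh, bf_conj]; congr 1; simp only [sh]; group

theorem sqf_sh (a : G) (n : ℕ) : sqf (sh x a n) = sqf a := sqf_conj _ _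

/-- An element of order 7 modulo the extraspecial group. -/
structure Sv (Q : Subgroup G) (z x : G) : Prop where
  es : ES2 Q z
  lg : Lg Q z
  hx : z * x = x * z
  h7 : x ^ 7 ∈ Q
  hn : x ∉ Q

/-- Annihilated by `X³ + X^k + 1`. -/
def Ann (Q : Subgroup G) (x u : G) (k : ℕ) : Prop :=
  u ∈ Q ∧ ∀ n, ∀ y ∈ Q, bf (sh x u (n + 3)) y = bf (sh x u (n + k)) y + bf (sh x u n) y

namespace Sv

variable (S : Sv Q z x)
include S

theorem mem {g : G} (hg : g ∈ Q) (n : ℕ) : sh x g n ∈ Q := S.lg.norm _ (Commute.pow_right S.hx n) g hg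

theorem per {g y : G} (hg : g ∈ Q) (hy : y ∈ Q) (n : ℕ) : bf (sh x g n) y = bf (sh x g (n % 7)) y := by
  refine S.es.aes.bf_eqv_left hy ?_
  conv_lhs => rw [← Nat.div_add_mod n 7, ← sh_sh, sh, pow_mul]
  exact S.es.aes.eqv_conj (pow_mem S.h7 _) (S.mem hg _)

theorem bf_sh_sh {a b : G} (ha : a ∈ Q) (hb : b ∈ Q) (i j : ℕ) :
    bf (sh x a i) (sh x b j) = bf (sh x a ((6 * j + i) % 7)) b := by
  rw [← bf_sh (x := x) _ _ (6 * j), sh_sh, sh_sh, bf_comm, S.per hb (S.mem ha _), show (6 * j + j) % 7 = 0 by omega, sh_zero,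
    bf_comm, S.per ha hb]

theorem bf4 {g y : G} (hg : g ∈ Q) (hy : y ∈ Q) (k n : ℕ) : bf (sh x (sh x g 4 * sh x g 2 * sh x g k * g) n) y =
    bf (sh x g (n + 4)) y + bf (sh x g (n + 2)) y + bf (sh x g (n + k)) y + bf (sh x g n) y := by
  simp only [sh_mul, sh_sh]
  rw [S.es.aes.bf_mul_left (mul_mem (mul_mem (S.mem hg _) (S.mem hg _)) (S.mem hg _)) (S.mem hg _) hy,
    S.es.aes.bf_mul_left (mul_mem (S.mem hg _) (S.mem hg _)) (S.mem hg _) hy,
    S.es.aes.bf_mul_left (S.mem hg _) (S.mem hg _) hy]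

theorem per7 {g y : G} (hg : g ∈ Q) (hy : y ∈ Q) (n : ℕ) : bf (sh x g (n + 7)) y = bf (sh x g n) y := by
  rw [S.per hg hy, Nat.add_mod_right, ← S.per hg hy]

theorem ann1 {g : G} (hg : g ∈ Q) : Ann Q x (sh x g 4 * sh x g 2 * sh x g 1 * g) 1 :=
  ⟨mul_mem (mul_mem (mul_mem (S.mem hg _) (S.mem hg _)) (S.mem hg _)) hg, fun n y hy => by
    simp only [S.bf4 hg hy, add_assoc n, Nat.reduceAdd, S.per7 hg hy]
    linear_combination (-(bf (sh x g (n + 2)) y + bf (sh x g (n + 1)) y)) * two0⟩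

theorem ann2 {g : G} (hg : g ∈ Q) : Ann Q x (sh x g 4 * sh x g 2 * sh x g 3 * g) 2 :=
  ⟨mul_mem (mul_mem (mul_mem (S.mem hg _) (S.mem hg _)) (S.mem hg _)) hg, fun n y hy => by
    simp only [S.bf4 hg hy, add_assoc n, Nat.reduceAdd, S.per7 hg hy]
    linear_combination (-(bf (sh x g (n + 4)) y + bf (sh x g (n + 2)) y)) * two0⟩

theorem exists_pair : ∃ u v, Ann Q x u 1 ∧ Ann Q x v 2 ∧ bf u v = 1 := by
  by_contra hc
  have h0 : ∀ u v, Ann Q x u 1 → Ann Q x v 2 → bf u v = 0 := fun u v hu hv =>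
    (Leech.zmod2_cases (bf u v)).resolve_right fun e => hc ⟨u, v, hu, hv, e⟩
  have h3 : ∀ u ∈ Q, (∀ y ∈ Q, bf (sh x u 3) y = 0) → ∀ n, ∀ y ∈ Q, bf (sh x u n) y = 0 := fun u hu key n y hy => by
    rw [← key _ (S.mem hy (6 * n + 3)), S.bf_sh_sh hu hy, S.per hu hy]
    congr 2; omega
  have h1 : ∀ u, Ann Q x u 1 → ∀ n, ∀ y ∈ Q, bf (sh x u n) y = 0 := fun u hu => h3 u hu.1 fun y hy => by
    have := h0 u _ hu (S.ann2 hy)
    rw [bf_comm, ← sh_zero (x := x) (_ * y), S.bf4 hy hu.1] at this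
    simp only [bf_comm _ u] at this
    rw [← sh_zero (x := x) u] at this
    simp only [S.bf_sh_sh hu.1 hy, Nat.reduceAdd, Nat.reduceMul, Nat.reduceMod] at this
    have b0 := hu.2 0 y hy
    have b1 := hu.2 1 y hy
    have b2 := hu.2 2 y hy
    simp only [Nat.reduceAdd] at b0 b1 b2
    grind
  have h2 : ∀ v, Ann Q x v 2 → ∀ n, ∀ y ∈ Q, bf (sh x v n) y = 0 := fun v hv => h3 v hv.1 fun y hy => by
    have := h0 _ v (S.ann1 (S.mem hy 4)) hv
    rw [← sh_zero (x := x) (_ * sh x y 4), S.bf4 (S.mem hy 4) hv.1] at this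
    simp only [bf_comm _ v, sh_sh] at this
    rw [← sh_zero (x := x) v] at this
    simp only [S.bf_sh_sh hv.1 hy, Nat.reduceAdd, Nat.reduceMul, Nat.reduceMod] at this
    have b0 := hv.2 0 y hy
    have b1 := hv.2 1 y hy
    have b2 := hv.2 2 y hy
    have b3 := hv.2 3 y hy
    simp only [Nat.reduceAdd] at b0 b1 b2 b3
    grind
  refine S.hn (S.lg.triv x S.hx fun g hg => eqv_of_bf S.es (S.lg.norm x S.hx g hg) hg fun y hy => ?_)
  have a0 := h1 _ (S.ann1 hg) 0 y hy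
  have a1 := h1 _ (S.ann1 hg) 1 y hy
  have a2 := h2 _ (S.ann2 hg) 1 y hy
  rw [S.bf4 hg hy] at a0 a1 a2
  rw [← sh_zero (x := x) g, sh_succ, sh_zero]
  simp only [Nat.reduceAdd, sh_zero] at a0 a1 a2 ⊢
  grind

theorem exists_pair' : ∃ u v, Ann Q x u 1 ∧ Ann Q x v 2 ∧ bf (sh x u 0) v = 1 ∧ bf (sh x u 1) v = 0 ∧
    bf (sh x u 2) v = 0 := by
  obtain ⟨u, v, hu, hv, h⟩ := S.exists_pair
  have key : ∀ γ : ℕ → ZMod 2, (∀ k, γ (k + 3) = γ (k + 1) + γ k) → γ 0 = 1 →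
      ∃ k, γ k = 1 ∧ γ (k + 1) = 0 ∧ γ (k + 2) = 0 := fun γ a a0 => by
    have a1 := a 0; have a2 := a 1; have a3 := a 2; have a4 := a 3; have a5 := a 4
    simp only [Nat.reduceAdd] at a1 a2 a3 a4 a5
    rcases Leech.zmod2_cases (γ 1) with e1 | e1 <;> rcases Leech.zmod2_cases (γ 2) with e2 | e2
    exacts [⟨0, a0, e1, e2⟩, ⟨4, by grind, by grind, by grind⟩, ⟨1, e1, e2, by grind⟩, ⟨2, e2, by grind, by grind⟩]
  obtain ⟨k, h0, h1, h2⟩ := key (fun k => bf (sh x u k) v) (fun k => hu.2 k v hv.1) (by rwa [sh_zero])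
  refine ⟨sh x u k, v, ⟨S.mem hu.1 k, fun n y hy => ?_⟩, hv, by rwa [sh_zero], by rwa [sh_sh, add_comm],
    by rwa [sh_sh, add_comm]⟩
  simp only [sh_sh, add_right_comm n _ k]
  exact hu.2 _ y hy

/-- An annihilated vector spans a totally singular subspace. -/
theorem sing {u : G} {k : ℕ} (hu : Ann Q x u k) (hk : k = 1 ∨ k = 2) :
    (∀ i < 3, ∀ j < 3, bf (sh x u i) (sh x u j) = 0) ∧ ∀ i, sqf (sh x u i) = 0 := by
  have a1 := hu.2 0 _ (S.mem hu.1 1)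
  have a2 := hu.2 0 _ (S.mem hu.1 2)
  have a4 := hu.2 1 u hu.1
  have a5 := hu.2 2 u hu.1
  have a6 := hu.2 3 u hu.1
  have a0 : bf (sh x u 0) u = 0 := by rw [sh_zero, bf_self]
  have e6 : bf (sh x u 6) u = bf (sh x u 1) u := by rw [bf_comm (sh x u 1), ← S.bf_sh_sh hu.1 hu.1 0 1, sh_zero]
  have e5 : bf (sh x u 5) u = bf (sh x u 2) u := by rw [bf_comm (sh x u 2), ← S.bf_sh_sh hu.1 hu.1 0 2, sh_zero]
  have h : bf (sh x u 1) u = 0 ∧ bf (sh x u 2) u = 0 := by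
    rcases hk with rfl | rfl <;>
      simp only [S.bf_sh_sh hu.1 hu.1, Nat.reduceAdd, Nat.reduceMul, Nat.reduceMod] at a1 a2 <;> grind
  refine ⟨fun i hi j hj => ?_, fun i => ?_⟩
  · rw [S.bf_sh_sh hu.1 hu.1]
    interval_cases i <;> interval_cases j <;> simp only [Nat.reduceAdd, Nat.reduceMul, Nat.reduceMod] <;> grind
  · have := sqf_eqv S.es.aes (mul_mem (S.mem hu.1 k) hu.1) (eqv_of_bf S.es (S.mem hu.1 3) (mul_mem (S.mem hu.1 k) hu.1)
      fun y hy => by simpa [S.es.aes.bf_mul_left (S.mem hu.1 k) hu.1 hy, sh_zero] using hu.2 0 y hy)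
    rw [sqf_mul S.es.aes (S.mem hu.1 k) hu.1, sqf_sh, sqf_sh] at this
    rw [sqf_sh]
    rcases hk with rfl | rfl <;> grind

theorem exists_frame [Finite G] (hc : Nat.card Q = 128) : ∃ ν : EG →* G, ν Z = z ∧ ν.range = Q ∧ ActZ ν x T7 := by
  obtain ⟨u, v, hu, hv, g0, g1, g2⟩ := S.exists_pair'
  have A := S.es.aes
  obtain ⟨u1, u2⟩ := S.sing hu (.inl rfl)
  obtain ⟨v1, v2⟩ := S.sing hv (.inr rfl)
  have mu := S.mem hu.1
  have mv := S.mem hv.1
  let q : Fin 3 → G := ![sh x v 0, sh x v 0 * sh x v 1, sh x v 1 * sh x v 2]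
  have mq : ∀ i, q i ∈ Q := fun i => by
    fin_cases i
    exacts [mv _, mul_mem (mv _) (mv _), mul_mem (mv _) (mv _)]
  have g3 := hu.2 0 v hv.1
  have g4 := hu.2 1 v hv.1
  have g5 := hu.2 2 v hv.1
  have g6 := hu.2 3 v hv.1
  simp only [Nat.reduceAdd] at g3 g4 g5 g6
  have hb : ∀ i j : Fin 3, bf (sh x u i) (q j) = if i = j then 1 else 0 := fun i j => by
    fin_cases i <;> fin_cases j <;>
      simp [q, A.bf_mul_right (mv _) (mv _) (mu _), S.bf_sh_sh hu.1 hv.1] <;> grind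
  obtain ⟨ν, b, b0, b1, b2, b3, b4, b5⟩ := exists_fr (z := z) (p := fun i => sh x u i) (q := q) A.z_sq
    (fun i => sqf_eq_zero.1 (u2 i))
    (fun i => sqf_eq_zero.1 (by fin_cases i <;> simp [q, sqf_mul A (mv _) (mv _), v1, v2]))
    (fun i => A.z_comm _ (mu i)) (fun i => A.z_comm _ (mq i)) (fun i j => bf_eq_zero.1 (u1 i i.2 j j.2))
    (fun i j => bf_eq_zero.1 (by
      fin_cases i <;> fin_cases j <;> simp [q, A.bf_mul_right (mv _) (mv _) (mv _), A.bf_mul_left (mv _) (mv _) (mv _),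
        A.bf_mul_left (mv _) (mv _) (mul_mem (mv _) (mv _)), v1]))
    (fun i j h => bf_eq_zero.1 (by rw [hb, if_neg h]))
    fun i => A.eq_of_ne (mq i) (mu i) (bf_eq_one.1 (by rw [bf_comm, hb, if_pos rfl]))
  have hle : ν.range ≤ Q := by
    rintro _ ⟨t, rfl⟩
    rw [t.decomp]
    simp only [map_mul, map_pow, b, b0, b1, b2, b3, b4, b5]
    exact mul_mem (mul_mem (mul_mem (mul_mem (mul_mem (mul_mem (pow_mem A.z_mem _) (pow_mem (mu _) _))
      (pow_mem (mu _) _)) (pow_mem (mu _) _)) (pow_mem (mq _) _)) (pow_mem (mq _) _)) (pow_mem (mq _) _)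
  refine ⟨ν, b, eq_of_le_of_card_ge hle ?_, b ▸ S.hx, fun i => ?_⟩
  · rw [hc, ← Nat.card_congr (ν.ofInjective (injective_of_ne (b ▸ A.z_ne))).toEquiv, card_EG]
  have t : T7 (Bs 0) = Bs 1 ∧ T7 (Bs 1) = Bs 2 ∧ T7 (Bs 2) = Bs 1 * Bs 0 ∧ T7 (Bs 3) = Bs 3 * Bs 4 ∧ T7 (Bs 4) = Bs 5 ∧
      T7 (Bs 5) = Bs 3 := by decide +kernel
  obtain ⟨t0, t1, t2, t3, t4, t5⟩ := t
  rw [b]
  refine eqv_of_bf S.es (S.lg.norm x S.hx _ (hle ⟨_, rfl⟩)) (hle ⟨_, rfl⟩) fun y hy => ?_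
  have c1 := hu.2 0 y hy
  have c2 := hv.2 0 y hy
  fin_cases i <;> simp only [Fin.zero_eta, Fin.mk_one, Fin.reduceFinMk, t0, t1, t2, t3, t4, t5, map_mul, b0, b1, b2, b3,
    b4, b5, q, Matrix.cons_val, ← conj_mul, sh_succ, A.bf_mul_left (mv _) (mv _) hy, A.bf_mul_left (mu _) (mu _) hy,
    A.bf_mul_left (mv _) (mul_mem (mv _) (mv _)) hy] <;> grind

end Sv

end Cfsg.Agent.Spor.HeTy
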