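import Mathlib
import Cfsg.Agent.Spor.HeTy1
import Cfsg.Agent.Spor.MTOdd2
import Cfsg.Agent.Spor.ESPair2
import Cfsg.Agent.Cl.PSL34
import Cfsg.Agent.FG.ClassCount
import Cfsg.Agent.Rec.Loc

/-!
Involution centralisers of shape `2^(1+6) . L₃(2)`: facts that need no coordinates.
-/

set_option autoImplicit false
set_option maxRecDepth 100000

namespace Cfsg.Agent.Spor.HeTy

open Subgroup Cfsg.Agent.Spor.MT Cfsg.Agent.Inv.Fz

/-- The group `L₃(2)`. -/
abbrev L3 := Matrix.SpecialLinearGroup (Fin 3) (ZMod 2)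

theorem card_L3 : Nat.card L3 = 168 := by rw [Cl.card_sl_three, Nat.card_zmod]; norm_num

theorem exists_four : ∃ w : L3, w * w * (w * w) = 1 ∧ w * w ≠ 1 :=
  ⟨⟨!![1, 1, 0; 0, 1, 1; 0, 0, 1], by decide +kernel⟩, by decide +kernel, by decide +kernel⟩

theorem exists_seven : ∃ x y : L3, x ^ 7 = 1 ∧ x ≠ 1 ∧ y * x = x ^ 2 * y :=
  ⟨⟨!![0, 0, 1; 1, 0, 1; 0, 1, 0], by decide +kernel⟩, ⟨!![1, 0, 0; 0, 0, 1; 0, 1, 1], by decide +kernel⟩,
    by decide +kernel, fun e => absurd (congrArg Subtype.val e) (by decide +kernel), by decide +kernel⟩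

theorem exists_sq {a : L3} (h : a * a = 1) : ∃ c, c * c = a := by
  obtain ⟨w, h1, h2⟩ := exists_four
  by_cases h0 : a = 1
  · exact ⟨1, by rw [h0, mul_one]⟩
  obtain ⟨g, rfl⟩ := isConj_iff.1 (Cl.sl_three_isConj_of_invol h1 h2 h h0)
  exact ⟨g * w * g⁻¹, by group⟩

theorem card_dvd_eight {Y : Subgroup L3} (h : IsPGroup 2 Y) : Nat.card Y ∣ 8 := by
  obtain ⟨k, hk⟩ := h.exists_card_eq
  have := card_subgroup_dvd_card Y
  rw [card_L3, hk] at this
  rw [hk]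
  exact Nat.Coprime.dvd_of_dvd_mul_right (n := 21) (Nat.Coprime.pow_left k (by norm_num)) this

theorem card_le_four {Y : Subgroup L3} (h : ∀ y ∈ Y, y * y = 1) : Nat.card Y ≤ 4 := by
  obtain ⟨k, hk⟩ := card_dvd_eight (Y := Y) fun y => ⟨1, Subtype.ext (by simpa [sq] using h y y.2)⟩
  by_contra hc
  have h8 : Nat.card Y = 2 ^ 3 := by
    rcases k with _ | _ | k
    · omega
    · omega
    · nlinarith
  obtain ⟨w, h1, h2⟩ := exists_four
  obtain ⟨g, -, hg⟩ := Rec.exists_conj_mem_syl (Rec.isSylIn_of_card (p := 2) (m := 21) le_top h8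
    (by rw [card_top, card_L3]; norm_num) (by norm_num)) (mem_top w) (k := 2) (by rw [← h1]; simp [pow_succ, mul_assoc])
  exact h2 (by simpa using h _ hg)

theorem eq_top_of_sq {K : Subgroup L3} (h : ∀ c, c * c ∈ K) : K = ⊤ :=
  Cl.sl_eq_top_of_transvection_mem _ fun i j hij c => by
    obtain ⟨d, hd⟩ := exists_sq (a := Matrix.SpecialLinearGroup.transvection hij c) (by
      rw [← Matrix.SpecialLinearGroup.transvection_add, CharTwo.add_self_eq_zero,
        Matrix.SpecialLinearGroup.transvection_coeff_zero])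
    exact hd ▸ h d

variable {G : Type*} [Group G]

theorem card_le_of_list {K : Subgroup G} (l : List G) (h : ∀ x ∈ K, x ∈ l) : Nat.card K ≤ l.length := by
  classical
  refine le_trans ?_ l.toFinset_card_le
  rw [← Set.ncard_coe_finset, ← SetLike.coe_sort_coe, Nat.card_coe_set_eq]
  exact Set.ncard_le_ncard (fun x hx => by simpa using h x hx) (Finset.finite_toSet _)

theorem dvd_ncard_of_conj [Finite G] {N : Subgroup G} {m : ℕ} (I : Set G) (hI : ∀ g ∈ N, ∀ y ∈ I, g * y * g⁻¹ ∈ I)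
    (h : ∀ y ∈ I, m ∣ (centralizer ({y} : Set G)).relIndex N) : m ∣ I.ncard := by
  induction hn : I.ncard using Nat.strong_induction_on generalizing I with
  | _ n ih =>
  rcases I.eq_empty_or_nonempty with rfl | ⟨y, hy⟩
  · simp [← hn]
  set O := {z | ∃ g ∈ N, g * y * g⁻¹ = z}
  have hO : O ⊆ I := by rintro _ ⟨g, hg, rfl⟩; exact hI g hg y hy
  have h2 := Set.ncard_sdiff_add_ncard_of_subset hO
  have h3 : 0 < O.ncard := (Set.ncard_pos (Set.toFinite _)).2 ⟨y, 1, one_mem _, by simp⟩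
  rw [← hn, ← h2, FG.ncard_conj_orbit_subgroup N y]
  refine dvd_add (ih _ (by omega) (I \ O) (fun g hg z hz => ⟨hI g hg z hz.1, ?_⟩)
    (fun z hz => h z hz.1) rfl) (h y hy)
  rintro ⟨k, hk, e⟩
  exact hz.2 ⟨g⁻¹ * k, mul_mem (inv_mem hg) hk, by
    rw [show g⁻¹ * k * y * (g⁻¹ * k)⁻¹ = g⁻¹ * (k * y * k⁻¹) * g by group, e]; group⟩

/-- The centraliser of `z` has shape `2^(1+6) . L₃(2)`. -/
structure HT (Q : Subgroup G) (z : G) (π : centralizer ({z} : Set G) →* L3) : Prop where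
  es : ES2 Q z
  lg : Lg Q z
  card : Nat.card Q = 128
  surj : Function.Surjective π
  ker : ∀ c, π c = 1 ↔ (c : G) ∈ Q

namespace HT

variable {Q R : Subgroup G} {z s : G} {π : centralizer ({z} : Set G) →* L3} (h : HT Q z π)
include h

theorem le : Q ≤ centralizer {z} := fun q hq => mem_centralizer_singleton.2 (h.es.z_comm q hq)

theorem card_eq {Y : Subgroup G} (hY : Y ≤ centralizer {z}) :
    Nat.card Y = Nat.card ↥(Q ⊓ Y) * Nat.card ((Y.subgroupOf (centralizer {z})).map π) := by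
  rw [← Nat.card_congr (subgroupOfEquivOfLe hY).toEquiv, card_eq_ker_mul π,
    ← card_map_of_injective (centralizer ({z} : Set G)).subtype_injective]
  rw [show (π.ker ⊓ Y.subgroupOf _).map _ = Q ⊓ Y from Subgroup.ext fun q => ⟨fun ⟨y, hy, e⟩ =>
    e ▸ ⟨(h.ker y).1 hy.1, hy.2⟩, fun hq => ⟨⟨q, hY hq.2⟩, ⟨(h.ker _).2 hq.1, hq.2⟩, rfl⟩⟩]

theorem card_C : Nat.card (centralizer ({z} : Set G)) = 21504 := by
  rw [h.card_eq le_rfl, inf_eq_left.2 h.le, h.card, subgroupOf_self, map_top_of_surjective _ h.surj, card_top, card_L3]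

theorem eqv_conj {c d : centralizer ({z} : Set G)} (e : π c = π d) {q : G} (hq : q ∈ Q) :
    Eqv z (c * q * (c : G)⁻¹) (d * q * (d : G)⁻¹) := by
  have := h.es.aes.eqv_conj ((h.ker (c * d⁻¹)).1 (by rw [map_mul, map_inv, e, mul_inv_cancel]))
    (h.lg.norm d (MData.z_comm_coe d) q hq)
  convert this using 1
  push_cast; group

variable [Finite G]

theorem mem_of_cj {m g : G} (hm : m ∈ Q) (h1 : m ≠ 1) (hz : m ≠ z)
    (hle : cj g (Q ⊓ centralizer {m}) ≤ centralizer {z}) : g * z * g⁻¹ ∈ Q := by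
  by_contra hn
  have a1 := h.card_eq hle
  have a2 := h.es.card_centralizer_mul_two hm h1 hz
  have a3 := Nat.le_of_dvd (by norm_num) (card_dvd_eight
    (((isPGroup_cj (h.es.isPGroup.to_le (inf_le_left (b := centralizer {m}))) g).comap_subtype (K := centralizer {z})).map π))
  have a4 := card_le_of_list (K := Q ⊓ cj g (Q ⊓ centralizer {m})) [1, g * z * g⁻¹, g * m * g⁻¹, g * (z * m) * g⁻¹]
    fun k hk => by
      have hk' := mem_cj.1 hk.2
      have := h.es.center_centralizer hm hk'.1 fun p hp e => (h.es.comm p hp _ hk'.1).resolve_right fun e' => hn (by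
        have h3 := h.lg.norm _ (mem_centralizer_singleton.1 (hle (conj_mem_cj.2 ⟨hp, mem_centralizer_singleton.2 e.symm⟩)))
          k hk.1
        convert mul_mem h3 (inv_mem hk.1) using 1
        calc _ = g * (z * (g⁻¹ * k * g * p)) * (p⁻¹ * g⁻¹ * k⁻¹) := by group
          _ = _ := by rw [← e']; group)
      rw [show k = g * (g⁻¹ * k * g) * g⁻¹ by group]
      rcases this with (e | e) | (e | e) <;> simp [e]
  rw [card_cj] at a1
  rw [h.card] at a2
  have := Nat.mul_le_mul a4 a3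
  simp only [List.length] at this
  change _ * Nat.card ((cj g _).subgroupOf _ |>.map π) ≤ _ at this
  omega

/-- If `z` is weakly closed in `Q`, its centraliser controls fusion in `Q`. -/
theorem conj_of_closed (hodd : ¬ 2 ∣ (centralizer ({z} : Set G)).index) (hw : ∀ s ∈ Q, IsConj z s → s = z) {m m' : G}
    (hm : m ∈ Q) (h1 : m ≠ 1) (hz : m ≠ z) (hm' : m' ∈ Q) (h1' : m' ≠ 1) (hz' : m' ≠ z) (e : IsConj m m') :
    ∃ c ∈ centralizer ({z} : Set G), c * m * c⁻¹ = m' := by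
  obtain ⟨T, hT, -⟩ := exists_isSylIn (p := 2) (H := centralizer {z}) IsPGroup.of_bot bot_le
  have hT' : IsSylIn 2 T ⊤ := isSylIn_of_not_dvd le_top hT.isPGroup (by
    rw [relIndex_top_right, ← relIndex_mul_index hT.le, Nat.prime_two.dvd_mul]
    exact fun a => a.elim hT.not_dvd_relIndex hodd)
  obtain ⟨P, hP, -⟩ := exists_isSylIn (p := 2) (H := centralizer {m'}) IsPGroup.of_bot bot_le
  obtain ⟨k, -, hk⟩ := hT'.exists_cj_le hP.isPGroup le_top
  have key : ∀ j n, n ∈ Q → n ≠ 1 → n ≠ z → j * n * j⁻¹ = m' →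
      ∃ c ∈ centralizer ({z} : Set G), c * n * c⁻¹ = k * m' * k⁻¹ := fun j n a1 a2 a3 a4 => by
    obtain ⟨l, hl, a5⟩ := hP.exists_cj_le (isPGroup_cj (h.es.isPGroup.to_le (inf_le_left (b := centralizer {n}))) j)
      (by rw [← a4, ← cj_centralizer_singleton]; exact cj_mono inf_le_right)
    have a6 := h.mem_of_cj a1 a2 a3 (g := k * l * j) (by
      rw [← cj_cj, ← cj_cj]; exact ((cj_mono a5).trans hk).trans hT.le)
    refine ⟨k * l * j, Rec.mem_cen'.2 (hw _ a6 (isConj_iff.2 ⟨_, rfl⟩)), ?_⟩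
    rw [← Rec.mem_cen'.1 hl, ← a4]; group
  obtain ⟨j, hj⟩ := isConj_iff.1 e
  obtain ⟨c, hc, a1⟩ := key j m hm h1 hz hj
  obtain ⟨d, hd, a2⟩ := key 1 m' hm' h1' hz' (by group)
  exact ⟨d⁻¹ * c, mul_mem (inv_mem hd) hc, by rw [mul_inv_rev, mul_assoc, mul_assoc, ← mul_assoc m, ← mul_assoc c, ← mul_assoc c, a1, ← a2]; group⟩

/-- No involution outside `Q` centralises a subgroup of index two of `Q`. -/
theorem four_dvd {w : G} (hw : w * w = 1) (hn : w ∉ Q) : 4 ∣ (centralizer ({w} : Set G)).relIndex Q := by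
  have A := h.es.aes
  have h1 : (centralizer ({w} : Set G)).relIndex Q ∣ 2 ^ 7 := by
    rw [show 2 ^ 7 = Nat.card Q by rw [h.card]; norm_num]; exact index_dvd_card _
  obtain ⟨k, -, hk⟩ := (Nat.dvd_prime_pow Nat.prime_two).1 h1
  by_contra hc
  have h2 : (centralizer ({w} : Set G)).relIndex Q ∣ 2 := by
    rw [hk] at hc ⊢
    rcases k with _ | _ | k
    exacts [one_dvd _, dvd_rfl, absurd ⟨2 ^ k, by ring⟩ hc]
  have h3 : ∀ a ∈ Q, ∀ b ∈ Q, a ∉ centralizer {w} → b ∉ centralizer {w} → a * b ∈ centralizer ({w} : Set G) :=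
    fun a ha b hb h4 h5 => by
      rcases (Nat.dvd_prime Nat.prime_two).1 h2 with e | e
      · exact absurd (relIndex_eq_one.1 e ha) h4
      · exact (mul_mem_iff_of_index_two e (a := ⟨a, ha⟩) (b := ⟨b, hb⟩)).2 (iff_of_false h4 h5)
  have h4 : z ∈ centralizer ({w} : Set G) := by
    obtain ⟨a, ha, b, hb, e⟩ := h.es.exists_comm_eq_z
    have : ∀ a ∈ Q, a * a ∈ centralizer ({w} : Set G) := fun a ha => by
      by_cases h5 : a ∈ centralizer ({w} : Set G)
      exacts [mul_mem h5 h5, h3 a ha a ha h5 h5]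
    have h5 := mul_mem (mul_mem (inv_mem (this a ha)) (this _ (mul_mem ha hb))) (inv_mem (this b hb))
    rw [show (a * a)⁻¹ * (a * b * (a * b)) * (b * b)⁻¹ = a⁻¹ * (b * a) * b⁻¹ by group,
      ← A.z_mul_z_mul (b * a), ← e, ← mul_assoc, ← A.z_comm _ (inv_mem ha)] at h5
    simpa using h5
  have hz : z * w = w * z := (mem_centralizer_singleton.1 h4).symm
  obtain ⟨a, ha, h5⟩ := h.es.exists_comm_iff le_rfl _ h3 fun _ => h4
  obtain ⟨y, hy, h6⟩ : ∃ y ∈ Q, ¬ Eqv z (w * y * w⁻¹) y := by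
    by_contra h7
    exact hn (h.lg.triv w hz fun q hq => by_contra fun h8 => h7 ⟨q, hq, h8⟩)
  have h7 := fun y hy => h.es.comm_of_centralizes ha (h.lg.norm w hz) (y := y)
    (fun p hp e => mem_centralizer_singleton.1 ((h5 p hp).1 e.symm)) hy
  obtain ⟨b1, b2, b3⟩ := (h7 y hy).resolve_left h6
  let w' : centralizer ({z} : Set G) := ⟨w, mem_centralizer_singleton.2 hz⟩
  obtain ⟨c', hc'⟩ := exists_sq (a := π w') (by rw [← map_mul, ← map_one π]; congr 1; exact Subtype.ext hw)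
  obtain ⟨c, rfl⟩ := h.surj c'
  have n := h.lg.norm c (MData.z_comm_coe c)
  have b4 : ∀ q ∈ Q, ∀ u ∈ Q, bf (c * (c * q * (c : G)⁻¹) * (c : G)⁻¹) u = bf (w * q * w⁻¹) u := fun q hq u hu => by
    refine A.bf_eqv_left hu ?_
    convert h.eqv_conj (c := c * c) (d := w') (by rw [map_mul, hc']) hq using 1
    push_cast; group
  have hk := mul_mem (n y hy) hy
  have b5 : Eqv z (c * (c * y * (c : G)⁻¹ * y) * (c : G)⁻¹) (a * (c * y * (c : G)⁻¹ * y)) :=
    eqv_of_bf h.es (n _ hk) (mul_mem ha hk) fun u hu => by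
      rw [← conj_mul, A.bf_mul_left (n _ (n y hy)) (n y hy) hu, b4 y hy u hu, A.bf_eqv_left hu b1, A.bf_mul_left ha hy hu,
        A.bf_mul_left ha hk hu, A.bf_mul_left (n y hy) hy hu]
      ring
  have b6 : Eqv z (c * a * (c : G)⁻¹) a := by
    have b7 : ∀ u ∈ Q, bf (c * a * (c : G)⁻¹) u + bf a u + bf (c * y * (c : G)⁻¹ * y) u =
        bf (w * (c * y * (c : G)⁻¹ * y) * w⁻¹) u := fun u hu => by
      rw [← b4 _ hk u hu, A.bf_eqv_left hu (b5.conj (MData.z_comm_coe c)), ← conj_mul, A.bf_mul_left (n a ha) (n _ hk) hu,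
        A.bf_eqv_left hu b5, A.bf_mul_left ha hk hu, add_assoc]
    rcases h7 _ hk with e | ⟨e, -⟩
    · exact eqv_of_bf h.es (n a ha) ha fun u hu => by
        have := b7 u hu
        rw [A.bf_eqv_left hu e] at this
        clear * - this
        grind
    · have b8 := sq_eq_of_eqv A (one_mem Q) (eqv_of_bf h.es (n a ha) (one_mem Q) fun u hu => by
        have := b7 u hu
        rw [A.bf_eqv_left hu e, A.bf_mul_left ha hk hu] at this
        rw [bf_eq_zero.2 (Commute.one_left u)]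
        clear * - this
        grind)
      rw [conj_mul, b3, mul_one, conj_eq_one_iff] at b8
      exact absurd b8 A.z_ne
  have b7 := sqf_eqv A (mul_mem ha hk) b5
  have b8 : bf a (c * y * (c : G)⁻¹) = bf a y := by
    rw [← A.bf_eqv_left (n y hy) b6, bf_conj]; congr 1; group
  rw [sqf_conj, sqf_mul A ha hk, A.bf_mul_right (n y hy) hy ha, b8, sqf_eq_one.2 (show a * a ≠ 1 from b3 ▸ A.z_ne)] at b7
  clear * - b7
  grind

omit h in
theorem card_E_le {Q R : Subgroup G} {z s : G} (hp : ESPair Q R z s) (hc : Nat.card Q = 128) : Nat.card ↥(Q ⊓ R) ≤ 16 := by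
  have h1 := hp.esQ.card_mul_card_centralizer (A := Q ⊓ R) inf_le_left ⟨hp.esQ.z_mem, hp.z_mem⟩
  have h2 : Nat.card ↥(Q ⊓ R) ≤ Nat.card ↥(Q ⊓ centralizer ((Q ⊓ R : Subgroup G) : Set G)) :=
    card_le_of_le fun x hx => ⟨hx.1, fun y hy => hp.E_comm hy hx⟩
  rw [hc] at h1
  nlinarith

theorem card_R (hp : ESPair Q R z s) : Nat.card R = 128 := by
  obtain ⟨g, rfl, -⟩ := hp.conj
  rw [cj_def, card_cj, h.card]

theorem card_A (hp : ESPair Q R z s) : Nat.card ↥(R ⊓ centralizer {z}) = 64 := by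
  have := hp.esR.card_centralizer_mul_two hp.z_mem hp.esQ.z_ne hp.ne
  rw [h.card_R hp] at this
  omega

theorem dvd_card (hp : ESPair Q R z s) : 256 ∣ Nat.card ↥(centralizer ({z} : Set G) ⊓ centralizer {s}) := by
  have hle : (R ⊓ centralizer {z}) ⊔ (Q ⊓ centralizer {s}) ≤ centralizer ({z} : Set G) ⊓ centralizer {s} :=
    sup_le (le_inf inf_le_right fun x hx => mem_centralizer_singleton.2 (hp.esR.z_comm x hx.1))
      (inf_le_inf_right _ h.le)
  refine dvd_trans ?_ (card_dvd_of_le hle)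
  obtain ⟨k, hk⟩ := hp.rad_isPGroup.exists_card_eq
  have h1 := h.card_eq (hle.trans inf_le_left)
  have h2 := h.card_eq (Y := R ⊓ centralizer {z}) inf_le_right
  have h3 := card_le_of_le (map_mono (f := π) (comap_mono (f := (centralizer ({z} : Set G)).subtype)
    (le_sup_left : _ ≤ (R ⊓ centralizer {z}) ⊔ (Q ⊓ centralizer {s}))))
  have h4 : Nat.card ↥(Q ⊓ centralizer {s}) ≤ Nat.card ↥(Q ⊓ ((R ⊓ centralizer {z}) ⊔ (Q ⊓ centralizer {s}))) :=
    card_le_of_le (le_inf inf_le_left le_sup_right)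
  have h5 := h.es.card_centralizer_mul_two hp.s_mem hp.esR.z_ne hp.ne.symm
  have h6 := (card_le_of_le (inf_le_inf_left Q (inf_le_left (b := centralizer {z})))).trans (card_E_le hp h.card)
  rw [h.card_A hp] at h2
  rw [h.card] at h5
  rw [hk] at h1 ⊢
  refine (pow_dvd_pow 2 ((Nat.pow_le_pow_iff_right one_lt_two).1 ?_) : 2 ^ 8 ∣ _)
  have h7 := Nat.mul_le_mul h4 h3
  have h8 := Nat.mul_le_mul_right (Nat.card (((R ⊓ centralizer {z}).subgroupOf (centralizer {z})).map π)) h6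
  change _ * Nat.card (((R ⊓ centralizer {z}).subgroupOf (centralizer {z})).map π) ≤ _ *
    Nat.card ((((R ⊓ centralizer {z}) ⊔ (Q ⊓ centralizer {s})).subgroupOf (centralizer {z})).map π) at h7
  rw [show Nat.card ↥(Q ⊓ centralizer {s}) = 64 by omega] at h7
  omega

/-- An involution outside `Q` with two elements of `Q ⊓ R`. -/
theorem exists_tau (hp : ESPair Q R z s) : ∃ τ e₁ e₂ : G, z * τ = τ * z ∧ τ ∉ Q ∧ τ * τ = 1 ∧ e₁ ∈ Q ∧ e₂ ∈ Q ∧
    τ * e₁ * τ⁻¹ = s * e₁ ∧ τ * e₂ * τ⁻¹ = e₂ ∧ e₂ * e₂ = 1 ∧ e₁ * e₂ = e₂ * e₁ ∧ s * e₁ = e₁ * s ∧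
    e₂ ∉ [1, z, s, z * s] := by
  have B := hp.esR.aes
  have h1 := h.card_eq (Y := R ⊓ centralizer {z}) inf_le_right
  have h2 := card_le_four (Y := ((R ⊓ centralizer {z}).subgroupOf (centralizer {z})).map π) (by
    rintro _ ⟨y, hy, rfl⟩
    rw [← map_mul, h.ker]
    rcases B.sq _ hy.1 with e | e
    exacts [show (y : G) * y ∈ Q from e ▸ one_mem Q, show (y : G) * y ∈ Q from e ▸ hp.s_mem])
  rw [h.card_A hp, ← inf_assoc, inf_eq_left.2 (inf_le_left.trans h.le)] at h1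
  have h3 := card_E_le hp h.card
  have h4 : Nat.card ↥(Q ⊓ R) = 16 := by nlinarith
  have h5 := hp.esR.card_mul_card_centralizer (A := Q ⊓ R) inf_le_right ⟨hp.s_mem, B.z_mem⟩
  rw [h4, h.card_R hp] at h5
  have h6 : Q ⊓ R = R ⊓ centralizer ((Q ⊓ R : Subgroup G) : Set G) :=
    eq_of_le_of_card_ge (fun x hx => ⟨hx.2, fun y hy => hp.E_comm hy hx⟩) (by omega)
  obtain ⟨t, ht, h7⟩ : ∃ t ∈ R ⊓ centralizer {z}, t ∉ Q := by
    by_contra h7
    have := card_le_of_le (H := R ⊓ centralizer {z}) (K := Q ⊓ R) fun x hx => ⟨by_contra fun a => h7 ⟨x, hx, a⟩, hx.1⟩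
    rw [h.card_A hp] at this
    omega
  obtain ⟨e, he, h8⟩ : ∃ e ∈ Q ⊓ R, t * e ≠ e * t := by
    by_contra h8
    exact h7 (h6.ge ⟨ht.1, fun y hy => by_contra fun a => h8 ⟨y, hy, fun b => a b.symm⟩⟩).1
  obtain ⟨τ, hτ, a1, a2, a3⟩ : ∃ τ ∈ R ⊓ centralizer {z}, τ ∉ Q ∧ τ * τ = 1 ∧ τ * e ≠ e * τ := by
    rcases B.sq _ ht.1 with b | b
    · exact ⟨t, ht, h7, b, h8⟩
    · refine ⟨t * e, mul_mem ht ⟨he.2, h.le he.1⟩, fun a => h7 ((mul_mem_cancel_right (show e ∈ Q from he.1)).1 a), ?_, fun a => h8 ?_⟩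
      · rw [mul_assoc, ← mul_assoc e, B.eq_of_ne he.2 ht.1 h8.symm, mul_assoc, mul_assoc t, hp.E_sq he, mul_one,
          B.z_comm _ ht.1, ← mul_assoc, b, B.z_sq]
      · rwa [← mul_assoc e, mul_left_inj] at a
  obtain ⟨f, hf, a4⟩ : ∃ f ∈ Q ⊓ R, f ∉ [1, z, s, z * s] ∧ f * e ∉ [1, z, s, z * s] := by
    by_contra a
    have := card_le_of_list (K := Q ⊓ R) [1, z, s, z * s, 1 * e⁻¹, z * e⁻¹, s * e⁻¹, z * s * e⁻¹] fun f hf => by
      by_contra b
      refine a ⟨f, hf, fun c => b ?_, fun c => b ?_⟩ <;> simp only [List.mem_cons, eq_mul_inv_iff_mul_eq] at c ⊢ <;> tauto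
    simp only [List.length] at this
    omega
  have key : ∀ f ∈ Q ⊓ R, τ * f = f * τ → f ∉ [1, z, s, z * s] → _ := fun f hf b1 b2 =>
    (⟨τ, e, f, mem_centralizer_singleton.1 hτ.2, a1, a2, he.1, hf.1, B.conj_of_ne hτ.1 he.2 a3, mul_inv_eq_iff_eq_mul.2 b1,
      hp.E_sq hf, hp.E_comm he hf, B.z_comm _ he.2, b2⟩ : ∃ τ e₁ e₂ : G, z * τ = τ * z ∧ τ ∉ Q ∧ τ * τ = 1 ∧ e₁ ∈ Q ∧
      e₂ ∈ Q ∧ τ * e₁ * τ⁻¹ = s * e₁ ∧ τ * e₂ * τ⁻¹ = e₂ ∧ e₂ * e₂ = 1 ∧ e₁ * e₂ = e₂ * e₁ ∧ s * e₁ = e₁ * s ∧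
      e₂ ∉ [1, z, s, z * s])
  by_cases b : f * τ = τ * f
  exacts [key f hf b.symm a4.1, key _ (mul_mem hf he) (B.comm_mul_of_ne hf.2 he.2 hτ.1 b a3.symm).symm a4.2]

end HT

end Cfsg.Agent.Spor.HeTy
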